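import Cfsg.Agent.H1.HallSymGrp

/-! Classification of the Hall subgroups of symmetric and alternating groups. -/

set_option autoImplicit false

namespace Cfsg.Agent.H1

open Equiv Equiv.Perm Subgroup Cfsg.Agent.H2 MulAction
open scoped Nat Pointwise

universe u

variable {α : Type*} [Fintype α] [DecidableEq α]

/-- Indicator function of a finite set. -/
def ind (X : Finset α) : α → Bool := fun x => decide (x ∈ X)

theorem ind_eq_iff {X : Finset α} {x y : α} : ind X x = ind X y ↔ (x ∈ X ↔ y ∈ X) := by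
  simp [ind]

theorem card_fibStab_ind (X : Finset α) :
    Nat.card (fibStab (ind X)) = (X.card)! * (Fintype.card α - X.card)! := by
  rw [card_fibStab, Fintype.prod_bool, ← Finset.card_compl]
  congr 2
  · exact Fintype.card_of_subtype _ (by simp [ind])
  · exact Fintype.card_of_subtype _ (by simp [ind])

theorem index_fibStab_ind (X : Finset α) :
    (fibStab (ind X)).index = (Fintype.card α).choose X.card := by
  have h1 := (fibStab (ind X)).index_mul_card
  rw [card_fibStab_ind, Nat.card_perm, Nat.card_eq_fintype_card,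
    ← Nat.choose_mul_factorial_mul_factorial (Finset.card_le_univ X), mul_assoc] at h1
  exact Nat.eq_of_mul_eq_mul_right (by positivity) h1

theorem prime_dvd_card_alt {r : ℕ} (hr : r.Prime) (hn : 4 ≤ Fintype.card α)
    (h : r ≤ Fintype.card α) : r ∣ Nat.card (alternatingGroup α) := by
  have hnt : Nontrivial α := Fintype.one_lt_card_iff_nontrivial.1 (by omega)
  have h1 : 2 * Nat.card (alternatingGroup α) = (Fintype.card α)! := by
    rw [two_mul_nat_card_alternatingGroup, Nat.card_perm, Nat.card_eq_fintype_card]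
  by_cases h2 : r = 2
  · subst h2
    have h3 : 2 * 2 ∣ (Fintype.card α)! := (by decide : 2 * 2 ∣ 4 !).trans (Nat.factorial_dvd_factorial hn)
    rw [← h1] at h3
    exact Nat.dvd_of_mul_dvd_mul_left (by norm_num) h3
  · have h3 := (Nat.Prime.dvd_factorial hr).2 h
    rw [← h1] at h3
    exact ((Nat.coprime_primes hr Nat.prime_two).2 h2).dvd_of_dvd_mul_left h3

theorem le_card_of_prime_dvd_card {H : Subgroup (Perm α)} {r : ℕ} (hr : r.Prime)
    (h : r ∣ Nat.card H) : r ≤ Fintype.card α := by
  have := h.trans (card_subgroup_dvd_card H)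
  rw [Nat.card_perm, Nat.card_eq_fintype_card] at this
  exact (Nat.Prime.dvd_factorial hr).1 this

theorem AH.primitive {π : Set ℕ} {H : Subgroup (Perm α)} (hH : AH π H)
    (h2 : TwoPr π (Fintype.card α)) (hprim : IsPreprimitive H α) : AllPr π (Fintype.card α) := by
  have h3 := h2.three_le
  by_cases t3 : 3 ∈ π
  · obtain ⟨g, hg, -, hc⟩ := hH.exists_cycle Nat.prime_three (by norm_num) t3 h3
    have h4 := alternatingGroup_le_of_isPreprimitive_of_isThreeCycle_mem hprim
      (card_support_eq_three_iff.1 hc) hg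
    intro r hr hrn
    rcases h3.lt_or_eq with h3 | h3
    · exact hH.1 r hr ((prime_dvd_card_alt hr h3 hrn).trans (card_dvd_of_le h4))
    · obtain ⟨a, b, ha, hb, hne, a1, a2, a3, a4⟩ := h2
      have := ha.two_le; have := hb.two_le; have := hr.two_le
      rcases (show r = a ∨ r = b by omega) with rfl | rfl <;> assumption
  exfalso
  by_cases t2 : 2 ∈ π
  · have h5 : 5 ≤ Fintype.card α := by
      obtain ⟨a, b, ha, hb, hne, a1, a2, a3, a4⟩ := h2
      have := ha.two_le; have := hb.two_le
      have : a ≠ 3 := fun h => t3 (h ▸ a1)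
      have : b ≠ 3 := fun h => t3 (h ▸ a2)
      have : a ≠ 4 := fun h => by subst h; exact absurd ha (by norm_num)
      have : b ≠ 4 := fun h => by subst h; exact absurd hb (by norm_num)
      omega
    obtain ⟨X, hX, hs⟩ := hH.exists_four t2 (by omega)
    have hnb : ¬ IsBlock H (X : Set α) := by
      intro hb
      rcases hprim.isTrivialBlock_of_isBlock hb with h | h
      · have := Finset.card_le_one.2 (fun a ha b hb => h ha hb); omega
      · rw [Finset.coe_eq_univ] at h
        rw [h, Finset.card_univ] at hX; omega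
    rw [isBlock_iff_smul_eq_of_mem] at hnb
    push Not at hnb
    obtain ⟨h, a, ha, hha, hne⟩ := hnb
    set Y : Finset α := X.map h.1.toEmbedding with hY
    have hYc : Y.card = 4 := by rw [hY, Finset.card_map, hX]
    have hXY : Y ≠ X := by
      intro hc
      apply hne
      ext x
      conv_rhs => rw [← hc]
      simp only [hY, Finset.coe_map, Set.mem_image, Set.mem_smul_set]
      rfl
    obtain ⟨b, hb, hbY⟩ : ∃ b ∈ X, b ∉ Y := by
      by_contra hc
      push Not at hc
      exact hXY (Finset.eq_of_subset_of_card_le hc (by omega)).symm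
    obtain ⟨e, he, heX⟩ : ∃ e ∈ Y, e ∉ X := by
      by_contra hc
      push Not at hc
      exact hXY (Finset.eq_of_subset_of_card_le hc (by omega))
    obtain ⟨e, he', rfl⟩ := Finset.mem_map.1 he
    obtain ⟨s, hsH, s1, s2, s3⟩ := hs _ hha b hb
    obtain ⟨t, htH, t1, t2', t4⟩ := hs a ha e he'
    have hb' : h.1⁻¹ b ∉ X := fun hc => hbY (Finset.mem_map.2 ⟨_, hc, by simp⟩)
    change h.1 e ∉ X at heX
    change h.1 a ∈ X at hha
    change s (h.1 a) = b at s1
    change s b = h.1 a at s2
    have u1 : (s * (h.1 * t * h.1⁻¹)) (h.1 a) = h.1 e := by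
      simp only [Perm.mul_apply, coe_inv, symm_apply_apply, t1, s3 _ heX]
    have u2 : (s * (h.1 * t * h.1⁻¹)) (h.1 e) = b := by
      simp only [Perm.mul_apply, coe_inv, symm_apply_apply, t2', s1]
    have u3 : (s * (h.1 * t * h.1⁻¹)) b = h.1 a := by
      simp only [Perm.mul_apply, t4 _ hb']
      simp only [coe_inv, apply_symm_apply, s2]
    refine t3 (hH.1 3 Nat.prime_three (prime_dvd_card_of_periodic (a := h.1 a)
      (mul_mem hsH (mul_mem (mul_mem h.2 htH) (inv_mem h.2))) Nat.prime_three ?_ ?_))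
    · rw [pow_succ', pow_succ', pow_one, Perm.mul_apply (s * (h.1 * t * h.1⁻¹)),
        Perm.mul_apply (s * (h.1 * t * h.1⁻¹)), u1, u2, u3]
    · rw [u1]; intro hc; exact heX (hc ▸ hha)
  · obtain ⟨p, hp, hpπ, hpn⟩ : ∃ p : ℕ, p.Prime ∧ p ∈ π ∧ p < Fintype.card α := by
      obtain ⟨a, b, ha, hb, hne, a1, a2, a3, a4⟩ := h2
      rcases lt_or_gt_of_ne hne with h | h
      · exact ⟨a, ha, a1, by omega⟩
      · exact ⟨b, hb, a2, by omega⟩
    obtain ⟨g, hg, hgc, hc⟩ := hH.exists_cycle hp (fun h => t2 (h ▸ hpπ)) hpπ hpn.le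
    have hp2 := hp.two_le
    have hsc : Set.ncard ((g.support)ᶜ : Set α) = (Fintype.card α - p - 1) + 1 := by
      apply Nat.add_left_cancel
      rw [Set.ncard_add_ncard_compl, Set.ncard_coe_finset, hc, Nat.card_eq_fintype_card]
      omega
    have h6 := hprim.is_two_pretransitive hsc (by rw [Nat.card_eq_fintype_card]; omega)
      (isPretransitive_of_isCycle_mem hgc hg)
    have hnt : Nontrivial α := Fintype.one_lt_card_iff_nontrivial.1 (by omega)
    obtain ⟨a, b, hab⟩ := exists_pair_ne α
    obtain ⟨k, k1, k2⟩ := is_two_pretransitive_iff.1 h6 hab hab.symm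
    change k.1 a = b at k1
    change k.1 b = a at k2
    refine t2 (hH.1 2 Nat.prime_two (prime_dvd_card_of_periodic (a := a) k.2 Nat.prime_two ?_ ?_))
    · rw [sq, Perm.mul_apply, k1, k2]
    · rw [k1]; exact hab.symm

theorem AH.intrans {π : Set ℕ} {α : Type u} [Fintype α] [DecidableEq α] {H : Subgroup (Perm α)}
    (hH : AH π H) (h2 : TwoPr π (Fintype.card α))
    (ih : ∀ (β : Type u) [Fintype β] [DecidableEq β] (K : Subgroup (Perm β)),
      Fintype.card β < Fintype.card α → AH π K → TwoPr π (Fintype.card β) →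
        AllPr π (Fintype.card β) ∨ ∃ c, HallType π (Fintype.card β) c)
    {X : Finset α} (hX : H ≤ fibStab (ind X)) (h1 : 1 ≤ X.card) (hle : X.card ≤ Xᶜ.card) :
    HallType π (Fintype.card α) X.card := by
  have h3 := h2.three_le
  have hn : Fintype.card α = Xᶜ.card + X.card := (Finset.card_compl_add_card X).symm
  obtain ⟨a, ha, b, hb, hab⟩ := Finset.one_lt_card.1 (show 1 < Xᶜ.card by omega)
  have h4 := hH.index hX (swap_mem_fibStab (a := a) (b := b) (by
    rw [ind_eq_iff]; simp only [Finset.mem_compl] at ha hb; simp [ha, hb])) (swap_not_mem_alt hab)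
  rw [index_fibStab_ind, hn] at h4
  rw [hn] at h2
  have h5 := h2.of_le (intrans_max hle h4)
  obtain ⟨K, hK⟩ := hH.restrict (hX.trans (fibStab_le_blkStab _)) (fun x => x ∉ X) false
    (by simp [ind])
  have h6 : Fintype.card {x // x ∉ X} = Xᶜ.card :=
    Fintype.card_of_subtype _ (fun _ => Finset.mem_compl)
  have h7 := ih _ K (by omega) hK (by rwa [h6])
  rw [h6] at h7
  rw [hn]
  exact intrans_num h1 hle h5 h7 h4

theorem AH.imprim {π : Set ℕ} {α : Type u} [Fintype α] [DecidableEq α] {H : Subgroup (Perm α)}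
    (hH : AH π H) (h2 : TwoPr π (Fintype.card α))
    (ih : ∀ (β : Type u) [Fintype β] [DecidableEq β] (K : Subgroup (Perm β)),
      Fintype.card β < Fintype.card α → AH π K → TwoPr π (Fintype.card β) →
        AllPr π (Fintype.card β) ∨ ∃ c, HallType π (Fintype.card β) c)
    {ι : Type*} [Fintype ι] [DecidableEq ι] {f : α → ι} (hf : H ≤ blkStab f) {a : ℕ} (ha : 1 ≤ a)
    (hfib : ∀ i, Fintype.card {x // f x = i} = a + 1) (hι : 2 ≤ Fintype.card ι) :
    ∃ X : Finset α, HallType π (Fintype.card α) X.card ∧ H ≤ blkStab (ind X) := by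
  have hn : Fintype.card α = (a + 1) * Fintype.card ι := by
    rw [← Fintype.card_congr (Equiv.sigmaFiberEquiv f), Fintype.card_sigma]
    simp [hfib, mul_comm]
  have hsurj : Function.Surjective f := fun i => by
    obtain ⟨x⟩ := Fintype.card_pos_iff.1 (show 0 < Fintype.card {x // f x = i} by
      rw [hfib]; omega)
    exact ⟨x.1, x.2⟩
  obtain ⟨i⟩ := Fintype.card_pos_iff.1 (show 0 < Fintype.card ι by omega)
  obtain ⟨x, y, hxy⟩ := Fintype.exists_pair_of_one_lt_card
    (show 1 < Fintype.card {x // f x = i} by rw [hfib]; omega)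
  have h4 := hH.index hf (fibStab_le_blkStab f (swap_mem_fibStab (a := x.1) (b := y.1)
    (x.2.trans y.2.symm))) (swap_not_mem_alt (fun h => hxy (Subtype.ext h)))
  have h5 : ∏ j ∈ Finset.range (Fintype.card ι), ((a + 1) * j + a).choose a ∣ (blkStab f).index := by
    obtain ⟨d, hd⟩ := card_blkStab_dvd hsurj
    have h6 := (blkStab f).index_mul_card
    rw [card_fibStab] at hd
    simp only [hfib, Finset.prod_const, Finset.card_univ] at hd
    rw [Nat.card_perm, Nat.card_eq_fintype_card (α := α), hn, factorial_mul_eq_prod,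
      mul_comm _ (Fintype.card ι)!, hd] at h6
    refine ⟨d, Nat.eq_of_mul_eq_mul_right (Nat.card_pos (α := blkStab f)) ?_⟩
    rw [h6]; ring
  have h6 := h4.of_dvd h5
  have h7 : TwoPr π (a + 1) := by
    rw [hn] at h2
    exact h2.of_le (imprim_max ha h6)
  obtain ⟨K, hK⟩ := hH.restrict hf (fun x => f x = i) i (fun _ => Iff.rfl)
  have h8 := ih _ K (by rw [hfib, hn]; nlinarith) hK (by rwa [hfib])
  rw [hfib] at h8
  obtain ⟨rfl, hb, h9⟩ := imprim_num ha hι h7 h8 h6
  refine ⟨Finset.univ.filter (fun x => f x = i), ?_, ?_⟩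
  · rw [← Fintype.card_subtype, hfib, hn, hb]; exact h9
  · have key : ∀ x y, ind (Finset.univ.filter (fun x => f x = i)) x =
        ind (Finset.univ.filter (fun x => f x = i)) y ↔ f x = f y := by
      intro x y
      rw [ind_eq_iff]
      simp only [Finset.mem_filter, Finset.mem_univ, true_and]
      refine ⟨fun h => ?_, fun h => by rw [h]⟩
      by_contra hne
      have h1 : f x ≠ i := fun hc => hne (hc.trans (h.1 hc).symm)
      have h2 : f y ≠ i := fun hc => hne ((h.2 hc).trans hc.symm)
      have := Finset.card_le_univ ({f x, f y, i} : Finset ι)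
      rw [Finset.card_eq_three.2 ⟨_, _, _, hne, h1, h2, rfl⟩] at this
      omega
    intro g hg x y
    rw [key, key]
    exact hf hg x y

theorem AH.classify_aux (π : Set ℕ) (n : ℕ) : ∀ (α : Type u) [Fintype α] [DecidableEq α]
    (H : Subgroup (Perm α)), Fintype.card α = n → AH π H → TwoPr π (Fintype.card α) →
      AllPr π (Fintype.card α) ∨
        ∃ X : Finset α, HallType π (Fintype.card α) X.card ∧ H ≤ blkStab (ind X) := by
  induction n using Nat.strong_induction_on with
  | _ n ih0 =>
  intro α _ _ H hn hH h2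
  have ih : ∀ (β : Type u) [Fintype β] [DecidableEq β] (K : Subgroup (Perm β)),
      Fintype.card β < Fintype.card α → AH π K → TwoPr π (Fintype.card β) →
        AllPr π (Fintype.card β) ∨ ∃ c, HallType π (Fintype.card β) c := by
    intro β _ _ K h1 hK h3
    rcases ih0 _ (hn ▸ h1) β K rfl hK h3 with h | ⟨X, h, -⟩
    · exact Or.inl h
    · exact Or.inr ⟨_, h⟩
  by_cases hprim : IsPreprimitive H α
  · exact Or.inl (hH.primitive h2 hprim)
  right
  by_cases htr : IsPretransitive H α
  · obtain ⟨B, hB, hnt⟩ : ∃ B : Set α, IsBlock H B ∧ ¬ IsTrivialBlock B := by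
      by_contra hc
      push Not at hc
      exact hprim { isTrivialBlock_of_isBlock := fun {B} hB => hc B hB }
    rw [IsTrivialBlock, not_or, Set.not_subsingleton_iff] at hnt
    have hsys := hB.isBlockSystem hnt.1.nonempty
    classical
    let ι := orbit H B
    have : Fintype ι := Fintype.ofFinite _
    choose f0 hf0 hf0' using hsys.1.2
    let f : α → ι := fun x => ⟨f0 x, (hf0 x).1⟩
    have hfx : ∀ x (Y : ι), f x = Y ↔ x ∈ Y.1 := fun x Y =>
      ⟨fun h => h ▸ (hf0 x).2, fun h => Subtype.ext (hf0' x Y.1 ⟨Y.2, h⟩).symm⟩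
    have hsm : ∀ (g : H) x, f (g.1 x) = g • f x := fun g x => by
      rw [hfx]; exact Set.smul_mem_smul_set (hf0 x).2
    have hcard : 2 ≤ B.ncard := (Set.one_lt_ncard_iff_nontrivial).2 hnt.1
    refine hH.imprim h2 ih (f := f) (a := B.ncard - 1) ?_ (by omega) ?_ ?_
    · intro g hg x y
      rw [hsm ⟨g, hg⟩, hsm ⟨g, hg⟩, smul_left_cancel_iff]
    · rintro ⟨_, g, rfl⟩
      rw [Nat.sub_add_cancel (by omega), ← Set.ncard_smul_set g B, ← Nat.card_eq_fintype_card,
        ← Nat.card_coe_set_eq]
      exact Nat.card_congr (Equiv.subtypeEquivRight fun x => hfx x _)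
    · obtain ⟨x, hx⟩ := (Set.ne_univ_iff_exists_notMem B).1 hnt.2
      apply Fintype.one_lt_card_iff.2
      exact ⟨f x, ⟨B, mem_orbit_self B⟩, fun h => hx ((hfx x _).1 h)⟩
  · obtain ⟨a, b, hab⟩ : ∃ a b : α, b ∉ orbit H a := by
      by_contra hc
      push Not at hc
      exact htr ⟨fun a b => hc a b⟩
    classical
    set X : Finset α := Finset.univ.filter (fun x => x ∈ orbit H a) with hXdef
    have hX : H ≤ fibStab (ind X) := by
      intro g hg x
      rw [ind_eq_iff]
      simp only [hXdef, Finset.mem_filter, Finset.mem_univ, true_and]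
      conv_lhs => rw [← smul_orbit (⟨g, hg⟩ : H)]
      exact Set.smul_mem_smul_set_iff (a := (⟨g, hg⟩ : H))
    have hX' : H ≤ fibStab (ind Xᶜ) := by
      intro g hg x
      have := hX hg x
      rw [ind_eq_iff] at this ⊢
      simp only [Finset.mem_compl, this]
    have h1 : 1 ≤ X.card := Finset.card_pos.2 ⟨a, by simp [hXdef]⟩
    have h1' : 1 ≤ Xᶜ.card := Finset.card_pos.2 ⟨b, by simp [hXdef, hab]⟩
    rcases le_total X.card Xᶜ.card with h | h
    · exact ⟨X, hH.intrans h2 ih hX h1 h, hX.trans (fibStab_le_blkStab _)⟩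
    · exact ⟨Xᶜ, hH.intrans h2 ih hX' h1' (by rwa [compl_compl]), hX'.trans (fibStab_le_blkStab _)⟩

theorem AH.classify {π : Set ℕ} {H : Subgroup (Perm α)} (hH : AH π H)
    (h2 : TwoPr π (Fintype.card α)) (h3 : ¬ AllPr π (Fintype.card α)) :
    ∃ X : Finset α, HallType π (Fintype.card α) X.card ∧ H ≤ blkStab (ind X) :=
  (AH.classify_aux π _ α H rfl hH h2).resolve_left h3

end Cfsg.Agent.H1
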