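import Cfsg.Agent.H1.HallSymNT
import Cfsg.Agent.H2.Hall

/-! Numerical part of the classification of Hall subgroups of symmetric groups. -/

set_option autoImplicit false

namespace Cfsg.Agent.H1

open Nat Finset Cfsg.Agent.H2

/-- All primes up to `n` lie in `π`. -/
def AllPr (π : Set ℕ) (n : ℕ) : Prop := ∀ r : ℕ, r.Prime → r ≤ n → r ∈ π

/-- Two different primes up to `n` lie in `π`. -/
def TwoPr (π : Set ℕ) (n : ℕ) : Prop :=
  ∃ r s : ℕ, r.Prime ∧ s.Prime ∧ r ≠ s ∧ r ∈ π ∧ s ∈ π ∧ r ≤ n ∧ s ≤ n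

/-- The three exceptional types. -/
def HallType (π : Set ℕ) (n c : ℕ) : Prop :=
  (n.Prime ∧ (∀ r : ℕ, r.Prime → r ≤ n → (r ∈ π ↔ r < n)) ∧ c = 1) ∨
    (((n = 7 ∧ c = 3) ∨ (n = 8 ∧ c = 4)) ∧
      ∀ r : ℕ, r.Prime → r ≤ n → (r ∈ π ↔ (r = 2 ∨ r = 3)))

theorem HallType.unique {π : Set ℕ} {n c d : ℕ} (h1 : HallType π n c) (h2 : HallType π n d) :
    c = d := by
  have h5 : Nat.Prime 5 := by norm_num
  rcases h1 with ⟨hp, h1, rfl⟩ | ⟨h1, h1'⟩ <;> rcases h2 with ⟨hq, h2, rfl⟩ | ⟨h2, h2'⟩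
  · rfl
  · have := (h2' 5 h5 (by omega)).1 ((h1 5 h5 (by omega)).2 (by omega)); omega
  · have := (h1' 5 h5 (by omega)).1 ((h2 5 h5 (by omega)).2 (by omega)); omega
  · omega

theorem TwoPr.three_le {π : Set ℕ} {n : ℕ} (h : TwoPr π n) : 3 ≤ n := by
  obtain ⟨r, s, hr, hs, hne, -, -, h1, h2⟩ := h
  have := hr.two_le; have := hs.two_le; omega

theorem TwoPr.of_le {π : Set ℕ} {n m : ℕ} (h : TwoPr π n)
    (hm : ∀ r : ℕ, r.Prime → r ∈ π → r ≤ n → r ≤ m) : TwoPr π m := by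
  obtain ⟨r, s, hr, hs, hne, h1, h2, h3, h4⟩ := h
  exact ⟨r, s, hr, hs, hne, h1, h2, hm r hr h1 h3, hm s hs h2 h4⟩

theorem HallType.five_le {π : Set ℕ} {n c : ℕ} (h : HallType π n c) (h2 : TwoPr π n) : 5 ≤ n := by
  rcases h with ⟨hp, h1, -⟩ | ⟨h1, -⟩
  · obtain ⟨r, s, hr, hs, hne, a1, a2, a3, a4⟩ := h2
    have b1 := (h1 r hr a3).1 a1
    have b2 := (h1 s hs a4).1 a2
    have := hr.two_le; have := hs.two_le
    by_contra hc
    have : n = 4 := by omega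
    subst this
    exact absurd hp (by norm_num)
  · omega

theorem HallType.two_mem {π : Set ℕ} {n c : ℕ} (h : HallType π n c) (h2 : TwoPr π n) : 2 ∈ π := by
  have := h.five_le h2
  rcases h with ⟨hp, h1, -⟩ | ⟨-, h1⟩
  · exact (h1 2 Nat.prime_two (by omega)).2 (by omega)
  · exact (h1 2 Nat.prime_two (by omega)).2 (by omega)

theorem HallType.three_mem {π : Set ℕ} {n c : ℕ} (h : HallType π n c) (h2 : TwoPr π n) :
    3 ∈ π := by
  have := h.five_le h2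
  rcases h with ⟨hp, h1, -⟩ | ⟨-, h1⟩
  · exact (h1 3 Nat.prime_three (by omega)).2 (by omega)
  · exact (h1 3 Nat.prime_three (by omega)).2 (by omega)

theorem not_piNum_compl {π : Set ℕ} {l C : ℕ} (hl : l.Prime) (h : l ∈ π) (hd : l ∣ C) :
    ¬ PiNum πᶜ C := fun h1 => h1 l hl hd h

/-- Key step: a binomial coefficient `C(m+k,k)` with `2 ≤ k ≤ m`. -/
theorem choose_step {π : Set ℕ} {m k : ℕ} (hk : 2 ≤ k) (hkm : k ≤ m) (h2 : TwoPr π m)
    (hm : AllPr π m ∨ ∃ c, HallType π m c) (hC : PiNum πᶜ ((m + k).choose k)) :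
    m = 4 ∧ k = 3 := by
  by_contra h43
  obtain ⟨l, hl, hlm, hd⟩ := exists_prime_dvd_choose hk hkm h43
  rcases hm with hm | ⟨c, hm⟩
  · exact not_piNum_compl hl (hm l hl hlm) hd hC
  have t2 := hm.two_mem h2
  have t3 := hm.three_mem h2
  rcases hm with ⟨hp, h1, -⟩ | ⟨h1, -⟩
  · rcases hkm.lt_or_eq with hlt | rfl
    · rcases hlm.lt_or_eq with hlt' | rfl
      · exact not_piNum_compl hl ((h1 l hl hlm).2 hlt') hd hC
      · exact not_dvd_choose_add hl hlt hd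
    · exact not_piNum_compl Nat.prime_two t2 (two_dvd_choose_self (by omega)) hC
  · rcases h1 with ⟨rfl, -⟩ | ⟨rfl, -⟩
    · refine not_piNum_compl Nat.prime_two t2 ?_ hC
      interval_cases k <;> decide
    · refine not_piNum_compl Nat.prime_three t3 ?_ hC
      interval_cases k <;> decide

theorem small_primes {π : Set ℕ} {n : ℕ} (h2 : TwoPr π 4)
    (hm : ∀ r : ℕ, r.Prime → r ∈ π → r ≤ n → r ≤ 4) :
    ∀ r : ℕ, r.Prime → r ≤ n → (r ∈ π ↔ (r = 2 ∨ r = 3)) := by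
  have key : ∀ r : ℕ, r.Prime → r ≤ 4 → r = 2 ∨ r = 3 := by
    intro r hr h
    have := hr.two_le
    interval_cases r
    · simp
    · simp
    · exact absurd hr (by norm_num)
  intro r hr hrn
  refine ⟨fun h => key r hr (hm r hr h hrn), ?_⟩
  obtain ⟨a, b, ha, hb, hne, a1, a2, a3, a4⟩ := h2
  rcases key a ha a3 with rfl | rfl <;> rcases key b hb a4 with rfl | rfl <;>
    rintro (rfl | rfl) <;> first | assumption | omega

theorem intrans_max {π : Set ℕ} {m k : ℕ} (hkm : k ≤ m) (hC : PiNum πᶜ ((m + k).choose k)) :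
    ∀ r : ℕ, r.Prime → r ∈ π → r ≤ m + k → r ≤ m := by
  intro r hr h1 h2
  have h3 := (Nat.Prime.dvd_factorial hr).2 h2
  rw [← add_choose_mul_factorial_mul_factorial] at h3
  rcases (Nat.Prime.dvd_mul hr).1 h3 with h3 | h3
  · rcases (Nat.Prime.dvd_mul hr).1 h3 with h3 | h3
    · exact absurd hC (not_piNum_compl hr h1 h3)
    · exact (Nat.Prime.dvd_factorial hr).1 h3
  · exact ((Nat.Prime.dvd_factorial hr).1 h3).trans hkm

theorem intrans_num {π : Set ℕ} {m k : ℕ} (hk : 1 ≤ k) (hkm : k ≤ m) (h2 : TwoPr π m)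
    (hm : AllPr π m ∨ ∃ c, HallType π m c) (hC : PiNum πᶜ ((m + k).choose k)) :
    HallType π (m + k) k := by
  have hmax := intrans_max hkm hC
  rcases hk.lt_or_eq with hk | rfl
  · obtain ⟨rfl, rfl⟩ := choose_step hk hkm h2 hm hC
    exact Or.inr ⟨Or.inl ⟨rfl, rfl⟩, small_primes h2 hmax⟩
  rw [choose_one_right] at hC
  have h3 := h2.three_le
  rcases hm with hm | ⟨c, hm⟩
  · refine Or.inl ⟨?_, fun r hr h => ⟨fun h1 => Nat.lt_succ_of_le (hmax r hr h1 h),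
      fun h1 => hm r hr (by omega)⟩, rfl⟩
    by_contra hn
    have h4 := Nat.minFac_prime (show m + 1 ≠ 1 by omega)
    have h5 := (Nat.not_prime_iff_minFac_lt (show 2 ≤ m + 1 by omega)).1 hn
    exact not_piNum_compl h4 (hm _ h4 (by omega)) (Nat.minFac_dvd _) hC
  exfalso
  have t2 := hm.two_mem h2
  have t3 := hm.three_mem h2
  rcases hm with ⟨hp, h1, -⟩ | ⟨h1, -⟩
  · refine not_piNum_compl Nat.prime_two t2 ?_ hC
    have := hp.eq_two_or_odd
    omega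
  · rcases h1 with ⟨rfl, -⟩ | ⟨rfl, -⟩
    · exact not_piNum_compl Nat.prime_two t2 (by norm_num) hC
    · exact not_piNum_compl Nat.prime_three t3 (by norm_num) hC

theorem imprim_max {π : Set ℕ} {a b : ℕ} (ha : 1 ≤ a)
    (hC : PiNum πᶜ (∏ j ∈ range b, ((a + 1) * j + a).choose a)) :
    ∀ r : ℕ, r.Prime → r ∈ π → r ≤ (a + 1) * b → r ≤ a + 1 := by
  intro r hr h1 h2
  by_contra hc
  have h3 := (Nat.Prime.dvd_factorial hr).2 h2
  rw [factorial_mul_eq_prod] at h3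
  rcases (Nat.Prime.dvd_mul hr).1 h3 with h3 | h3
  swap
  · exact not_piNum_compl hr h1 h3 hC
  rcases (Nat.Prime.dvd_mul hr).1 h3 with h3 | h3
  · exact hc ((Nat.Prime.dvd_factorial hr).1 (hr.dvd_of_dvd_pow h3))
  have hb := (Nat.Prime.dvd_factorial hr).1 h3
  have hcop : (a + 1).Coprime r :=
    (Nat.coprime_of_lt_prime (by omega) (by omega) hr).symm
  obtain ⟨j, hj, hj1⟩ := Nat.exists_mul_mod_eq_one_of_coprime hcop hr.one_lt
  obtain ⟨j, rfl⟩ : ∃ j', j = j' + 1 := ⟨j - 1, by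
    rcases j with _ | j
    · simp at hj1
    · simp⟩
  have h4 : r ∣ (a + 1) * j + a := by
    have := Nat.div_add_mod ((a + 1) * (j + 1)) r
    rw [hj1] at this
    exact ⟨(a + 1) * (j + 1) / r, by
      have h : (a + 1) * (j + 1) = (a + 1) * j + a + 1 := by ring
      omega⟩
  obtain ⟨a, rfl⟩ : ∃ a', a = a' + 1 := ⟨a - 1, by omega⟩
  have h5 : ((a + 1 + 1) * j + a + 1) * ((a + 1 + 1) * j + a).choose a =
      ((a + 1 + 1) * j + a + 1).choose (a + 1) * (a + 1) := add_one_mul_choose_eq _ _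
  have h6 : r ∣ ((a + 1 + 1) * j + a + 1).choose (a + 1) * (a + 1) := by
    rw [← h5]; exact Dvd.dvd.mul_right h4 _
  rcases (Nat.Prime.dvd_mul hr).1 h6 with h6 | h6
  · refine not_piNum_compl hr h1 (h6.trans ?_) hC
    exact Finset.dvd_prod_of_mem (fun j => ((a + 1 + 1) * j + (a + 1)).choose (a + 1))
      (mem_range.2 (by omega))
  · have := Nat.le_of_dvd (by omega) h6; omega

theorem imprim_num {π : Set ℕ} {a b : ℕ} (ha : 1 ≤ a) (hb : 2 ≤ b) (h2 : TwoPr π (a + 1))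
    (hm : AllPr π (a + 1) ∨ ∃ c, HallType π (a + 1) c)
    (hC : PiNum πᶜ (∏ j ∈ range b, ((a + 1) * j + a).choose a)) :
    a = 3 ∧ b = 2 ∧ HallType π 8 4 := by
  have hmax := imprim_max ha hC
  have h3 := h2.three_le
  have hj : ∀ j < b, PiNum πᶜ (((a + 1) * j + a).choose a) := fun j hj =>
    hC.of_dvd (Finset.dvd_prod_of_mem (fun j => ((a + 1) * j + a).choose a) (mem_range.2 hj))
  have h1 := hj 1 (by omega)
  rw [mul_one] at h1
  obtain ⟨-, rfl⟩ := choose_step (by omega) (by omega) h2 hm h1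
  have h4 := small_primes h2 hmax
  have hb2 : b = 2 := by
    by_contra hne
    exact not_piNum_compl Nat.prime_three ((h4 3 Nat.prime_three (by omega)).2 (Or.inr rfl))
      (by decide) (hj 2 (by omega))
  subst hb2
  exact ⟨rfl, rfl, Or.inr ⟨Or.inr ⟨rfl, rfl⟩, h4⟩⟩

end Cfsg.Agent.H1
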