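import Mathlib.GroupTheory.GroupAction.Jordan
import Mathlib.GroupTheory.Perm.DomMulAct
import Mathlib.GroupTheory.Perm.Cycle.PossibleTypes
import Mathlib.GroupTheory.Perm.ViaEmbedding
import Cfsg.Agent.H1.HallSymNum

/-! Group-theoretic lemmas for the Hall subgroups of symmetric and alternating groups. -/

set_option autoImplicit false

namespace Cfsg.Agent.H1

open Equiv Equiv.Perm Subgroup Cfsg.Agent.H2 MulAction
open scoped Nat Pointwise

section General

variable {G : Type*} [Group G]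

theorem exists_conj_le_of_not_dvd_index [Finite G] {p : ℕ} [hp : Fact p.Prime] {H P : Subgroup G}
    (hH : ¬ p ∣ H.index) (hP : IsPGroup p P) : ∃ g : G, ∀ u ∈ P, g * u * g⁻¹ ∈ H := by
  obtain ⟨Q⟩ : Nonempty (Sylow p H) := inferInstance
  have h1 : IsPGroup p ((Q : Subgroup H).map H.subtype) := Q.isPGroup'.map _
  have h2 : ¬ p ∣ ((Q : Subgroup H).map H.subtype).index := by
    rw [Subgroup.index_map_subtype]
    intro h
    rcases (Nat.Prime.dvd_mul hp.out).1 h with h | h
    · exact Q.not_dvd_index h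
    · exact hH h
  obtain ⟨R, hR⟩ := hP.exists_le_sylow
  obtain ⟨g, hg⟩ := MulAction.exists_smul_eq G R (h1.toSylow h2)
  refine ⟨g, fun u hu => ?_⟩
  have h3 : g * u * g⁻¹ ∈ ((g • R : Sylow p G) : Subgroup G) := by
    rw [Sylow.coe_subgroup_smul]
    exact Subgroup.smul_mem_pointwise_smul u (MulAut.conj g) _ (hR hu)
  rw [hg] at h3
  obtain ⟨x, -, hx⟩ := h3
  rw [← hx]; exact x.2

theorem hallOf_exists_conj_le [Finite G] {π : Set ℕ} {p : ℕ} [hp : Fact p.Prime]
    {H K P : Subgroup G} (hH : IsPiHallOf π H K) (hpπ : p ∈ π) (hP : IsPGroup p P) (hPK : P ≤ K) :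
    ∃ g ∈ K, ∀ u ∈ P, g * u * g⁻¹ ∈ H := by
  obtain ⟨g, hg⟩ := exists_conj_le_of_not_dvd_index (H := H.subgroupOf K) (P := P.subgroupOf K)
    (hH.2.2 p hp.out hpπ) (hP.comap_subtype)
  exact ⟨g, g.2, fun u hu => hg ⟨u, hPK hu⟩ hu⟩

theorem hallOf_comap {G' : Type*} [Group G'] {π : Set ℕ} {ψ : G' →* G} (hψ : Function.Injective ψ)
    {H K : Subgroup G} (hH : IsPiHallOf π H K) (hK : K ≤ ψ.range) :
    IsPiHallOf π (H.comap ψ) (K.comap ψ) := by
  refine ⟨comap_mono hH.1, ?_, ?_⟩
  · have h1 : Nat.card (H.comap ψ) = Nat.card H := by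
      rw [← Subgroup.card_map_of_injective hψ, map_comap_eq_self (hH.1.trans hK)]
    rw [h1]; exact hH.2.1
  · rw [relIndex_comap, map_comap_eq_self hK]; exact hH.2.2

end General

variable {α : Type*} [Fintype α] [DecidableEq α]

theorem prime_dvd_card_of_periodic {H : Subgroup (Perm α)} {g : Perm α} (hg : g ∈ H) {l : ℕ}
    (hl : l.Prime) {a : α} (h1 : (g ^ l) a = a) (h2 : g a ≠ a) : l ∣ Nat.card H := by
  have := Fact.mk hl
  have h3 : Function.minimalPeriod g a = l :=
    Function.minimalPeriod_eq_prime (by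
      rw [Function.IsPeriodicPt, Function.IsFixedPt, iterate_eq_pow]; exact h1) h2
  have h4 : Function.IsPeriodicPt g (orderOf g) a := by
    rw [Function.IsPeriodicPt, Function.IsFixedPt, iterate_eq_pow, pow_orderOf_eq_one]; rfl
  exact (h3 ▸ h4.minimalPeriod_dvd).trans (H.orderOf_dvd_natCard hg)

/-- Permutations preserving the fibres of `f`. -/
def fibStab {ι : Type*} (f : α → ι) : Subgroup (Perm α) where
  carrier := {g | ∀ x, f (g x) = f x}
  mul_mem' := fun {a b} ha hb x => by rw [Perm.mul_apply, ha, hb]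
  one_mem' := fun _ => rfl
  inv_mem' := fun {a} ha x => by rw [← ha (a⁻¹ x)]; simp

/-- Permutations permuting the fibres of `f`. -/
def blkStab {ι : Type*} (f : α → ι) : Subgroup (Perm α) where
  carrier := {g | ∀ x y, f (g x) = f (g y) ↔ f x = f y}
  mul_mem' := fun {a b} ha hb x y => by rw [Perm.mul_apply, Perm.mul_apply, ha, hb]
  one_mem' := fun _ _ => Iff.rfl
  inv_mem' := fun {a} ha x y => by rw [← ha (a⁻¹ x)]; simp

variable {ι : Type*}

theorem mem_fibStab {f : α → ι} {g : Perm α} : g ∈ fibStab f ↔ ∀ x, f (g x) = f x := Iff.rfl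

theorem mem_blkStab {f : α → ι} {g : Perm α} :
    g ∈ blkStab f ↔ ∀ x y, f (g x) = f (g y) ↔ f x = f y := Iff.rfl

theorem fibStab_le_blkStab (f : α → ι) : fibStab f ≤ blkStab f := fun g hg x y => by
  rw [hg, hg]

theorem card_fibStab [Fintype ι] [DecidableEq ι] (f : α → ι) :
    Nat.card (fibStab f) = ∏ i, (Fintype.card {a // f a = i})! := by
  rw [← DomMulAct.stabilizer_card f, ← Nat.card_eq_fintype_card]
  exact Nat.card_congr (Equiv.subtypeEquivRight fun g => by
    rw [mem_fibStab, funext_iff]; rfl)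

theorem blkStab_le_normalizer (f : α → ι) : blkStab f ≤ normalizer (fibStab f : Set (Perm α)) := by
  have key : ∀ g ∈ blkStab f, ∀ b ∈ fibStab f, g * b * g⁻¹ ∈ fibStab f := by
    intro g hg b hb x
    have := (hg (b (g⁻¹ x)) (g⁻¹ x)).2 (hb _)
    simpa using this
  intro g hg
  rw [mem_normalizer_iff]
  intro b
  refine ⟨key g hg b, fun h => ?_⟩
  have := key g⁻¹ (inv_mem hg) _ h
  simpa [mul_assoc] using this

theorem card_blkStab_dvd [Fintype ι] [DecidableEq ι] {f : α → ι} (hf : Function.Surjective f) :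
    Nat.card (blkStab f) ∣ (Fintype.card ι)! * Nat.card (fibStab f) := by
  let s := Function.surjInv hf
  have hs : ∀ i, f (s i) = i := Function.surjInv_eq hf
  let act : MulAction (blkStab f) ι :=
    { smul := fun g i => f (g.1 (s i))
      one_smul := fun i => hs i
      mul_smul := fun g h i => by
        change f (g.1 (h.1 (s i))) = f (g.1 (s (f (h.1 (s i)))))
        rw [g.2, hs] }
  let ψ := MulAction.toPermHom (blkStab f) ι
  have h1 : ψ.ker ≤ (fibStab f).subgroupOf (blkStab f) := by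
    intro g hg x
    have h2 : f (g.1 (s (f x))) = f x := by
      have := DFunLike.congr_fun (MonoidHom.mem_ker.1 hg) (f x)
      exact this
    rw [← h2]
    exact (g.2 _ _).2 (hs _).symm
  have h2 : Nat.card ψ.ker ∣ Nat.card (fibStab f) := by
    rw [← Nat.card_congr (subgroupOfEquivOfLe (fibStab_le_blkStab f)).toEquiv]
    exact card_dvd_of_le h1
  have h3 : ψ.ker.index ∣ (Fintype.card ι)! := by
    rw [index_ker, ← Fintype.card_perm, ← Nat.card_eq_fintype_card]
    exact card_subgroup_dvd_card _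
  rw [← ψ.ker.index_mul_card]
  exact Nat.mul_dvd_mul h3 h2

theorem swap_mem_fibStab {f : α → ι} {a b : α} (h : f a = f b) : swap a b ∈ fibStab f := by
  intro x
  rw [swap_apply_def]
  split_ifs with h1 h2
  · rw [h1, h]
  · rw [h2, h]
  · rfl

theorem swap_not_mem_alt {a b : α} (h : a ≠ b) : swap a b ∉ alternatingGroup α := by
  rw [mem_alternatingGroup, sign_swap h]; decide

theorem relIndex_alt_eq_index {S : Subgroup (Perm α)} {t : Perm α} (ht : t ∈ S)
    (ht' : t ∉ alternatingGroup α) : S.relIndex (alternatingGroup α) = S.index := by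
  have hn : Nontrivial α := by
    by_contra hn
    rw [not_nontrivial_iff_subsingleton] at hn
    exact ht' (by rw [Subsingleton.elim t 1]; exact one_mem _)
  have h1 : (alternatingGroup α).index = 2 := alternatingGroup.index_eq_two
  have h2 : (alternatingGroup α).relIndex S = 2 := by
    have h3 := relIndex_dvd_index_of_normal (alternatingGroup α) S
    rw [h1] at h3
    rcases (Nat.dvd_prime Nat.prime_two).1 h3 with h | h
    · exact absurd (relIndex_eq_one.1 h ht) ht'
    · exact h
  have h4 := relIndex_mul_index (inf_le_left : S ⊓ alternatingGroup α ≤ S)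
  have h5 := relIndex_mul_index (inf_le_right : S ⊓ alternatingGroup α ≤ alternatingGroup α)
  rw [inf_relIndex_left, h2] at h4
  rw [inf_relIndex_right, h1] at h5
  omega

/-- `H` is a `π`-group meeting the alternating group in a Hall `π`-subgroup. -/
def AH (π : Set ℕ) (H : Subgroup (Perm α)) : Prop :=
  PiNum π (Nat.card H) ∧ IsPiHallOf π (H ⊓ alternatingGroup α) (alternatingGroup α)

theorem AH.index {π : Set ℕ} {H S : Subgroup (Perm α)} (hH : AH π H) (hS : H ≤ S) {t : Perm α}
    (ht : t ∈ S) (ht' : t ∉ alternatingGroup α) : PiNum πᶜ S.index := by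
  rw [← relIndex_alt_eq_index ht ht']
  exact (isPiHallOf_iff.1 hH.2).2.2.of_dvd
    (relIndex_dvd_of_le_left _ (inf_le_left.trans hS))

theorem AH.restrict {π : Set ℕ} {H : Subgroup (Perm α)} (hH : AH π H) {f : α → ι}
    (hf : H ≤ blkStab f) (p : α → Prop) [DecidablePred p] (i : ι) (hp : ∀ x, p x ↔ f x = i) :
    ∃ K : Subgroup (Perm {x // p x}), AH π K := by
  let ψ : Perm {x // p x} →* Perm α := ofSubtype
  have hψ : Function.Injective ψ := ofSubtype_injective
  have hr : ∀ g : Perm α, g ∈ ψ.range ↔ ∀ x, ¬ p x → g x = x := by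
    intro g
    rw [mem_range_ofSubtype_iff]
    constructor
    · intro h x hx
      by_contra hne
      exact hx (h (by simpa using hne))
    · intro h x hx
      by_contra hne
      exact (by simpa using hx : g x ≠ x) (h x hne)
  have h1 : IsPiHallOf π ((H ⊓ alternatingGroup α) ⊓ (fibStab f ⊓ alternatingGroup α))
      (fibStab f ⊓ alternatingGroup α) := by
    apply IsPiHallOf.inf hH.2 inf_le_right
    refine le_trans ?_ (inf_normalizer_le_normalizer_inf)
    exact le_inf (inf_le_left.trans (hf.trans (blkStab_le_normalizer f)))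
      (by rw [normalizer_eq_top]; exact le_top)
  have h2 : ψ.range ≤ fibStab f := by
    intro g hg x
    by_cases hx : p x
    · have : p (g x) := by
        by_contra hc
        have := (hr g).1 hg _ hc
        exact hc (by rw [g.injective this]; exact hx)
      rw [(hp _).1 hx, (hp _).1 this]
    · rw [(hr g).1 hg x hx]
  have h3 : fibStab f ≤ normalizer (ψ.range : Set (Perm α)) := by
    have key : ∀ g ∈ fibStab f, ∀ b ∈ ψ.range, g * b * g⁻¹ ∈ ψ.range := by
      intro g hg b hb
      rw [hr] at hb ⊢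
      intro x hx
      have : ¬ p (g⁻¹ x) := by rw [hp, inv_mem hg, ← hp]; exact hx
      rw [Perm.mul_apply, Perm.mul_apply, hb _ this]; simp
    intro g hg
    rw [mem_normalizer_iff]
    intro b
    refine ⟨key g hg b, fun h => ?_⟩
    have := key g⁻¹ (inv_mem hg) _ h
    simpa [mul_assoc] using this
  have h4 := IsPiHallOf.inf h1 (N := ψ.range ⊓ alternatingGroup α) (inf_le_inf_right _ h2) (by
    refine le_trans ?_ (inf_normalizer_le_normalizer_inf)
    exact le_inf (inf_le_right.trans (inf_le_left.trans h3))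
      (by rw [normalizer_eq_top]; exact le_top))
  have h5 := hallOf_comap hψ h4 inf_le_left
  have h6 : (ψ.range ⊓ alternatingGroup α).comap ψ = alternatingGroup {x // p x} := by
    ext g
    simp only [mem_comap, mem_inf, mem_alternatingGroup, ψ, sign_ofSubtype]
    exact ⟨fun h => h.2, fun h => ⟨⟨g, rfl⟩, h⟩⟩
  rw [h6] at h5
  refine ⟨_, (isPiHallOf_iff.1 h5).2.1, ?_⟩
  rwa [inf_eq_left.2 h5.1]

theorem AH.exists_cycle {π : Set ℕ} {H : Subgroup (Perm α)} (hH : AH π H) {p : ℕ} (hp : p.Prime)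
    (hp2 : p ≠ 2) (hπ : p ∈ π) (hn : p ≤ Fintype.card α) :
    ∃ g ∈ H, g.IsCycle ∧ g.support.card = p := by
  have := Fact.mk hp
  obtain ⟨c, hc⟩ := (exists_with_cycleType_iff α (m := {p})).2 ⟨by simpa using hn, by
    simpa using hp.two_le⟩
  have h1 : c.IsCycle := card_cycleType_eq_one.1 (by rw [hc]; simp)
  have h2 : c.support.card = p := by rw [← sum_cycleType, hc]; simp
  have h3 : c ∈ alternatingGroup α := by
    rw [mem_alternatingGroup, h1.sign, h2, (hp.odd_of_ne_two hp2).neg_one_pow]; simp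
  have h4 : IsPGroup p (zpowers c) :=
    IsPGroup.of_card (n := 1) (by rw [Nat.card_zpowers, h1.orderOf, h2, pow_one])
  obtain ⟨g, -, hg⟩ := hallOf_exists_conj_le hH.2 hπ h4 (zpowers_le.2 h3)
  exact ⟨_, (hg c (mem_zpowers c)).1, h1.conj, by rw [card_support_conj, h2]⟩

/-- The Klein four-group of `Perm (Fin 4)`. -/
def klein4 : Subgroup (Perm (Fin 4)) where
  carrier := {σ | σ * σ = 1 ∧ sign σ = 1}
  mul_mem' := by
    simp only [Set.mem_ofPred_eq]
    decide +kernel
  one_mem' := by simp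
  inv_mem' := fun {a} ha => ⟨by rw [← mul_inv_rev, ha.1, inv_one], by rw [sign_inv, ha.2]⟩

theorem klein4_swap : ∀ a b : Fin 4, ∃ σ : Perm (Fin 4), (σ * σ = 1 ∧ sign σ = 1) ∧ σ a = b ∧
    σ b = a := by
  decide +kernel

theorem AH.exists_four {π : Set ℕ} {H : Subgroup (Perm α)} (hH : AH π H) (hπ : 2 ∈ π)
    (hn : 4 ≤ Fintype.card α) : ∃ X : Finset α, X.card = 4 ∧ ∀ a ∈ X, ∀ b ∈ X,
      ∃ s ∈ H, s a = b ∧ s b = a ∧ ∀ x ∉ X, s x = x := by
  obtain ⟨j⟩ : Nonempty (Fin 4 ↪ α) := Function.Embedding.nonempty_of_card_le (by simpa using hn)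
  have h1 : IsPGroup 2 klein4 := fun σ => ⟨1, Subtype.ext (by simpa [sq] using σ.2.1)⟩
  have h2 : klein4.map (viaEmbeddingHom j) ≤ alternatingGroup α := by
    rintro _ ⟨σ, hσ, rfl⟩
    rw [mem_alternatingGroup, viaEmbeddingHom_apply, viaEmbedding, sign_extendDomain]
    exact hσ.2
  obtain ⟨g, -, hg⟩ := hallOf_exists_conj_le hH.2 hπ (h1.map _) h2
  refine ⟨Finset.univ.map (j.trans g.toEmbedding), by simp, ?_⟩
  intro a ha b hb
  obtain ⟨a, -, rfl⟩ := Finset.mem_map.1 ha
  obtain ⟨b, -, rfl⟩ := Finset.mem_map.1 hb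
  obtain ⟨σ, hσ, h3, h4⟩ := klein4_swap a b
  refine ⟨_, (hg _ ⟨σ, hσ, rfl⟩).1, ?_, ?_, ?_⟩
  · simp [viaEmbeddingHom_apply, viaEmbedding_apply, h3]
  · simp [viaEmbeddingHom_apply, viaEmbedding_apply, h4]
  · intro x hx
    have : g⁻¹ x ∉ Set.range j := by
      rintro ⟨y, hy⟩
      exact hx (Finset.mem_map.2 ⟨y, Finset.mem_univ _, by simp [hy]⟩)
    rw [Perm.mul_apply, Perm.mul_apply, viaEmbeddingHom_apply,
      viaEmbedding_apply_of_notMem _ _ _ this]
    simp

end Cfsg.Agent.H1
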