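import Cfsg.Agent.H1.HallSym
import Cfsg.Prelude.Def_HallClasses

/-! Consequences of the classification of Hall subgroups of symmetric and alternating groups. -/

set_option autoImplicit false

namespace Cfsg.Agent.H1

open Equiv Equiv.Perm Subgroup Cfsg.Agent.H2 MulAction
open scoped Nat Pointwise

section General

variable {G : Type*} [Group G] [Finite G] {π : Set ℕ}

theorem exists_maximal_pi_ge {U : Subgroup G} (hU : PiNum π (Nat.card U)) :
    ∃ M, U ≤ M ∧ Maximal (IsPiSubgroup π) M :=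
  Finite.exists_le_maximal (p := IsPiSubgroup π) hU

theorem maximal_of_isPiHall {H : Subgroup G} (hH : IsPiHall π H) : Maximal (IsPiSubgroup π) H :=
  ⟨hH.1, fun _ hK hle => (IsPiHallOf.eq_of_le (isPiHallOf_top.2 hH) le_top hK hle).le⟩

theorem isPiHall_of_isD (hD : IsDPiGroup π G) {M : Subgroup G}
    (hM : Maximal (IsPiSubgroup π) M) : IsPiHall π M := by
  refine ⟨hM.1, fun p hp hπ hd => ?_⟩
  have := Fact.mk hp
  obtain ⟨P⟩ : Nonempty (Sylow p G) := inferInstance
  obtain ⟨K, hPK, hK⟩ := exists_maximal_pi_ge (piNum_card_of_isPGroup P.isPGroup' hπ)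
  obtain ⟨g, rfl⟩ := hD M K hM hK
  have h1 := index_dvd_of_le hPK
  rw [index_map_of_bijective (MulAut.conj g).bijective] at h1
  exact P.not_dvd_index (hd.trans h1)

theorem isC_of_isD (hD : IsDPiGroup π G) : IsCPiGroup π G := by
  obtain ⟨M, -, hM⟩ := exists_maximal_pi_ge (π := π) (U := (⊥ : Subgroup G))
    (by rw [card_bot]; exact PiNum.one π)
  exact ⟨⟨M, isPiHall_of_isD hD hM⟩, fun H K hH hK =>
    hD H K (maximal_of_isPiHall hH) (maximal_of_isPiHall hK)⟩

theorem isD_of_all (h : ∀ r : ℕ, r.Prime → r ∣ Nat.card G → r ∈ π) : IsDPiGroup π G := by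
  have key : ∀ H : Subgroup G, Maximal (IsPiSubgroup π) H → H = ⊤ := fun H hH =>
    top_le_iff.1 (hH.2 (y := ⊤) (fun r hr hd => h r hr (by rwa [card_top] at hd)) le_top)
  intro H K hH hK
  rw [key H hH, key K hK]
  exact ⟨1, by ext; simp⟩

theorem isD_of_one (h : ∀ r s : ℕ, r.Prime → s.Prime → r ∈ π → s ∈ π → r ∣ Nat.card G →
    s ∣ Nat.card G → r = s) : IsDPiGroup π G := by
  by_cases h0 : ∃ p : ℕ, p.Prime ∧ p ∈ π ∧ p ∣ Nat.card G
  · obtain ⟨p, hp, hπ, hd⟩ := h0
    have := Fact.mk hp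
    have key : ∀ H : Subgroup G, Maximal (IsPiSubgroup π) H → ∃ P : Sylow p G, H = P := by
      intro H hH
      have h1 : IsPGroup p H := by
        rw [IsPGroup.iff_card]
        refine ⟨_, Nat.eq_prime_pow_of_unique_prime_dvd Nat.card_pos.ne' ?_⟩
        intro r hr hrd
        exact h r p hr hp (hH.1 r hr hrd) hπ (hrd.trans (card_subgroup_dvd_card H)) hd
      obtain ⟨P, hP⟩ := h1.exists_le_sylow
      exact ⟨P, le_antisymm hP (hH.2 (piNum_card_of_isPGroup P.isPGroup' hπ) hP)⟩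
    intro H K hH hK
    obtain ⟨P, rfl⟩ := key H hH
    obtain ⟨Q, rfl⟩ := key K hK
    obtain ⟨g, rfl⟩ := MulAction.exists_smul_eq G P Q
    exact ⟨g, rfl⟩
  · have key : ∀ H : Subgroup G, Maximal (IsPiSubgroup π) H → H = ⊥ := by
      intro H hH
      rw [← card_eq_one]
      by_contra hne
      obtain ⟨r, hr, hd⟩ := Nat.exists_prime_and_dvd hne
      exact h0 ⟨r, hr, hH.1 r hr hd, hd.trans (card_subgroup_dvd_card H)⟩
    intro H K hH hK
    rw [key H hH, key K hK]
    exact ⟨1, by simp⟩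

theorem isPiHall_subgroupOf_normal {H N : Subgroup G} [N.Normal] (hH : IsPiHall π H) :
    IsPiHall π (H.subgroupOf N) := by
  have h1 := IsPiHallOf.inf (isPiHallOf_top.2 hH) (N := N) le_top
    (by rw [normalizer_eq_top]; exact le_top)
  rwa [isPiHallOf_iff_subgroupOf inf_le_right, inf_subgroupOf_right] at h1

theorem eq_subgroupOf_of_le {N M₀ : Subgroup G} {M : Subgroup N} (hM : IsPiHall π M)
    (h0 : PiNum π (Nat.card M₀)) (hle : M.map N.subtype ≤ M₀) : M = M₀.subgroupOf N := by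
  symm
  refine IsPiHallOf.eq_of_le (isPiHallOf_top.2 hM) le_top ?_ (map_le_iff_le_comap.1 hle)
  rw [← inf_subgroupOf_right, Nat.card_congr (subgroupOfEquivOfLe inf_le_right).toEquiv]
  exact h0.of_dvd (card_dvd_of_le inf_le_left)

end General

variable {α : Type*} [Fintype α] [DecidableEq α] {π : Set ℕ}

theorem isD_of_trivial (h : ¬ (TwoPr π (Fintype.card α) ∧ ¬ AllPr π (Fintype.card α)))
    (S : Subgroup (Perm α)) : IsDPiGroup π S := by
  by_cases h2 : TwoPr π (Fintype.card α)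
  · have h3 : AllPr π (Fintype.card α) := by tauto
    exact isD_of_all fun r hr hd => h3 r hr (le_card_of_prime_dvd_card hr hd)
  · refine isD_of_one fun r s hr hs h1 h3 h4 h5 => ?_
    by_contra hne
    exact h2 ⟨r, s, hr, hs, hne, h1, h3, le_card_of_prime_dvd_card hr h4,
      le_card_of_prime_dvd_card hs h5⟩

theorem isD_perm_of_trivial (h : ¬ (TwoPr π (Fintype.card α) ∧ ¬ AllPr π (Fintype.card α))) :
    IsDPiGroup π (Perm α) := by
  have key : ∀ r : ℕ, r.Prime → r ∣ Nat.card (Perm α) → r ≤ Fintype.card α := fun r hr hd =>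
    le_card_of_prime_dvd_card (H := ⊤) hr (by rwa [card_top])
  by_cases h2 : TwoPr π (Fintype.card α)
  · have h3 : AllPr π (Fintype.card α) := by tauto
    exact isD_of_all fun r hr hd => h3 r hr (key r hr hd)
  · refine isD_of_one fun r s hr hs h1 h3 h4 h5 => ?_
    by_contra hne
    exact h2 ⟨r, s, hr, hs, hne, h1, h3, key r hr h4, key s hs h5⟩

theorem AH.of_perm {H : Subgroup (Perm α)} (hH : IsPiHall π H) : AH π H :=
  ⟨hH.1, IsPiHallOf.inf (isPiHallOf_top.2 hH) le_top (by rw [normalizer_eq_top]; exact le_top)⟩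

theorem AH.of_alt {M : Subgroup (alternatingGroup α)} (hM : IsPiHall π M) :
    AH π (M.map (alternatingGroup α).subtype) := by
  have h := isPiHallOf_map_subtype hM
  exact ⟨h.2.1, by rwa [inf_eq_left.2 h.1]⟩

theorem HallType.bounds {n c : ℕ} (h : HallType π n c) (h2 : TwoPr π n) : 1 ≤ c ∧ c + 2 ≤ n := by
  have := h.five_le h2
  rcases h with ⟨-, -, rfl⟩ | ⟨h, -⟩ <;> omega

theorem HallType.piNum_factorial {n c m : ℕ} (h : HallType π n c) (h2 : TwoPr π n)
    (hm : m ≤ n - c) : PiNum π m ! := by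
  intro r hr hd
  have h3 := (Nat.Prime.dvd_factorial hr).1 hd
  have := h.five_le h2
  rcases h with ⟨-, h, rfl⟩ | ⟨h, h'⟩
  · exact (h r hr (by omega)).2 (by omega)
  · apply (h' r hr (by omega)).2
    have := hr.two_le
    have : r ≠ 4 := fun h => by subst h; exact absurd hr (by norm_num)
    omega

theorem ind_surjective {X : Finset α} (h1 : 1 ≤ X.card) (h2 : X.card < Fintype.card α) :
    Function.Surjective (ind X) := by
  obtain ⟨a, ha⟩ := Finset.card_pos.1 h1
  obtain ⟨b, hb⟩ := Finset.card_pos.1 (show 0 < Xᶜ.card by rw [Finset.card_compl]; omega)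
  rintro (_ | _)
  · exact ⟨b, by simpa [ind] using hb⟩
  · exact ⟨a, by simpa [ind] using ha⟩

theorem HallType.piNum_W {X : Finset α} (h : HallType π (Fintype.card α) X.card)
    (h2 : TwoPr π (Fintype.card α)) : PiNum π (Nat.card (blkStab (ind X))) := by
  have h3 := h.bounds h2
  have h5 := h.five_le h2
  refine PiNum.of_dvd ?_ (card_blkStab_dvd (ind_surjective h3.1 (by omega)))
  rw [card_fibStab_ind]
  refine (h.piNum_factorial h2 ?_).mul ((h.piNum_factorial h2 ?_).mul (h.piNum_factorial h2 le_rfl))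
  · simp only [Fintype.card_bool]; omega
  · rcases h with ⟨-, -, h⟩ | ⟨h, -⟩ <;> omega

theorem exists_odd_mem_fibStab {X : Finset α} (h : X.card + 2 ≤ Fintype.card α) :
    ∃ t ∈ fibStab (ind X), t ∉ alternatingGroup α := by
  obtain ⟨a, ha, b, hb, hab⟩ := Finset.one_lt_card.1
    (show 1 < Xᶜ.card by rw [Finset.card_compl]; omega)
  exact ⟨_, swap_mem_fibStab (a := a) (b := b) (by
    rw [ind_eq_iff]; simp only [Finset.mem_compl] at ha hb; simp [ha, hb]), swap_not_mem_alt hab⟩

theorem AH.isPiHall_W {H : Subgroup (Perm α)} (hH : AH π H) {X : Finset α}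
    (h : HallType π (Fintype.card α) X.card) (h2 : TwoPr π (Fintype.card α))
    (hle : H ≤ blkStab (ind X)) : IsPiHall π (blkStab (ind X)) := by
  obtain ⟨t, ht, ht'⟩ := exists_odd_mem_fibStab (h.bounds h2).2
  exact isPiHall_iff.2 ⟨h.piNum_W h2, hH.index hle (fibStab_le_blkStab _ ht) ht'⟩

theorem exists_even_conj_W {X Y : Finset α} (h : X.card = Y.card)
    (h2 : X.card + 2 ≤ Fintype.card α) : ∃ g ∈ alternatingGroup α, ∀ k : Perm α,
      k ∈ blkStab (ind Y) ↔ g⁻¹ * k * g ∈ blkStab (ind X) := by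
  obtain ⟨g, hg, hXY⟩ : ∃ g ∈ alternatingGroup α, ∀ x, ind Y (g x) = ind X x := by
    let e : {x // x ∈ X} ≃ {x // x ∈ Y} := Finset.equivOfCardEq h
    have h3 : ∀ x, ind Y (e.extendSubtype x) = ind X x := by
      intro x
      by_cases hx : x ∈ X
      · simp [ind, hx, e.extendSubtype_mem x hx]
      · simp [ind, hx, e.extendSubtype_not_mem x hx]
    by_cases h4 : e.extendSubtype ∈ alternatingGroup α
    · exact ⟨_, h4, h3⟩
    · obtain ⟨t, ht, ht'⟩ := exists_odd_mem_fibStab h2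
      refine ⟨e.extendSubtype * t, ?_, fun x => by rw [Perm.mul_apply, h3, ht]⟩
      rw [mem_alternatingGroup] at *
      rw [Perm.sign_mul, (Int.units_eq_one_or _).resolve_left h4, (Int.units_eq_one_or _).resolve_left ht']
      simp
  refine ⟨g, hg, fun k => ?_⟩
  have h5 : ∀ x, ind X (g⁻¹ x) = ind Y x := fun x => by rw [← hXY]; simp
  simp only [mem_blkStab, Perm.mul_apply, h5, ← hXY]
  exact ⟨fun hk x y => hk _ _, fun hk x y => by simpa using hk (g⁻¹ x) (g⁻¹ y)⟩

theorem mem_map_conj_iff {G : Type*} [Group G] {H : Subgroup G} {g k : G} :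
    k ∈ H.map (MulAut.conj g).toMonoidHom ↔ g⁻¹ * k * g ∈ H := by
  constructor
  · rintro ⟨x, hx, rfl⟩; simpa [mul_assoc] using hx
  · intro h; exact ⟨_, h, by simp [mul_assoc]⟩

theorem hall_alt_iff (M : Subgroup (alternatingGroup α)) : IsPiHall π M ↔
    ∃ M₀ : Subgroup (Perm α), IsPiHall π M₀ ∧ M = M₀.subgroupOf (alternatingGroup α) := by
  refine ⟨fun hM => ?_, ?_⟩
  · have hA := AH.of_alt hM
    by_cases h : TwoPr π (Fintype.card α) ∧ ¬ AllPr π (Fintype.card α)
    · obtain ⟨X, hX, hle⟩ := hA.classify h.1 h.2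
      exact ⟨_, hA.isPiHall_W hX h.1 hle, eq_subgroupOf_of_le hM (hX.piNum_W h.1) hle⟩
    · obtain ⟨M₀, hle, h0⟩ := exists_maximal_pi_ge hA.1
      exact ⟨M₀, isPiHall_of_isD (isD_perm_of_trivial h) h0, eq_subgroupOf_of_le hM h0.1 hle⟩
  · rintro ⟨M₀, h0, rfl⟩
    exact isPiHall_subgroupOf_normal h0

theorem hall_perm_conj {H K : Subgroup (Perm α)} (hH : IsPiHall π H) (hK : IsPiHall π K) :
    ∃ g : Perm α, K = H.map (MulAut.conj g).toMonoidHom := by
  by_cases h : TwoPr π (Fintype.card α) ∧ ¬ AllPr π (Fintype.card α)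
  · obtain ⟨X, hX, hle⟩ := (AH.of_perm hH).classify h.1 h.2
    obtain ⟨Y, hY, hle'⟩ := (AH.of_perm hK).classify h.1 h.2
    obtain ⟨g, -, hg⟩ := exists_even_conj_W (hX.unique hY) (hX.bounds h.1).2
    rw [← IsPiHallOf.eq_of_le (isPiHallOf_top.2 hH) le_top (hX.piNum_W h.1) hle,
      ← IsPiHallOf.eq_of_le (isPiHallOf_top.2 hK) le_top (hY.piNum_W h.1) hle']
    exact ⟨g, Subgroup.ext fun k => by rw [mem_map_conj_iff, hg]⟩
  · exact (isC_of_isD (isD_perm_of_trivial h)).2 H K hH hK

theorem hall_alt_conj {H K : Subgroup (alternatingGroup α)} (hH : IsPiHall π H)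
    (hK : IsPiHall π K) : ∃ g : alternatingGroup α, K = H.map (MulAut.conj g).toMonoidHom := by
  by_cases h : TwoPr π (Fintype.card α) ∧ ¬ AllPr π (Fintype.card α)
  · obtain ⟨X, hX, hle⟩ := (AH.of_alt hH).classify h.1 h.2
    obtain ⟨Y, hY, hle'⟩ := (AH.of_alt hK).classify h.1 h.2
    obtain ⟨g, hg', hg⟩ := exists_even_conj_W (hX.unique hY) (hX.bounds h.1).2
    rw [eq_subgroupOf_of_le hH (hX.piNum_W h.1) hle, eq_subgroupOf_of_le hK (hY.piNum_W h.1) hle']
    exact ⟨⟨g, hg'⟩, Subgroup.ext fun k => by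
      rw [mem_map_conj_iff, mem_subgroupOf, mem_subgroupOf, hg]; rfl⟩
  · exact (isC_of_isD (isD_of_trivial h _)).2 H K hH hK

theorem exists_hall_of_hallType {n c : ℕ} (h : HallType π n c) (h2 : TwoPr π n) :
    IsEPiGroup π (Perm (Fin n)) := by
  have hb := h.bounds h2
  obtain ⟨X, -, hX⟩ := Finset.exists_subset_card_eq (s := (Finset.univ : Finset (Fin n))) (n := c)
    (by simp; omega)
  have h1 := (index_dvd_of_le (fibStab_le_blkStab (ind X)))
  rw [index_fibStab_ind, Fintype.card_fin, hX] at h1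
  have h3 : PiNum π (Nat.card (blkStab (ind X))) :=
    HallType.piNum_W (by rwa [Fintype.card_fin, hX]) (by rwa [Fintype.card_fin])
  rcases h with ⟨hp, h, rfl⟩ | ⟨⟨rfl, rfl⟩ | ⟨rfl, rfl⟩, h⟩
  · refine ⟨_, h3, fun r hr hπ hd => ?_⟩
    have h4 := hd.trans h1
    rw [Nat.choose_one_right, Nat.prime_dvd_prime_iff_eq hr hp] at h4
    subst h4
    exact absurd ((h r hr le_rfl).1 hπ) (lt_irrefl _)
  · refine ⟨_, h3, fun r hr hπ hd => ?_⟩
    have h4 := hd.trans h1
    have h5 : r ≤ 7 := by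
      have := (Nat.Prime.dvd_factorial hr).1 (h4.trans (by decide : Nat.choose 7 3 ∣ 7 !))
      exact this
    rcases (h r hr h5).1 hπ with rfl | rfl
    · exact absurd h4 (by decide)
    · exact absurd h4 (by decide)
  · let Y : Finset (Fin 8) := {0, 1, 2, 3}
    have hY : Y.card = 4 := by decide
    have h4 : PiNum π (Nat.card (blkStab (ind Y))) :=
      HallType.piNum_W (Or.inr ⟨Or.inr ⟨by simp, hY⟩, by simpa using h⟩) (by simpa using h2)
    have h5 := relIndex_mul_index (fibStab_le_blkStab (ind Y))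
    rw [index_fibStab_ind, Fintype.card_fin, hY] at h5
    have h6 : (fibStab (ind Y)).relIndex (blkStab (ind Y)) ∣ 2 := by
      have h7 := card_blkStab_dvd (ind_surjective (X := Y) (by omega) (by rw [hY]; simp))
      have h8 := ((fibStab (ind Y)).subgroupOf (blkStab (ind Y))).index_mul_card
      rw [Nat.card_congr (subgroupOfEquivOfLe (fibStab_le_blkStab _)).toEquiv] at h8
      rw [← h8] at h7
      exact Nat.dvd_of_mul_dvd_mul_right Nat.card_pos h7
    have h7 : (fibStab (ind Y)).relIndex (blkStab (ind Y)) ≠ 1 := by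
      rw [Ne, relIndex_eq_one]
      intro hle
      have h8 : (swap 0 4 * swap 1 5 * swap 2 6 * swap 3 7 : Perm (Fin 8)) ∈ blkStab (ind Y) := by
        rw [mem_blkStab]; decide
      exact absurd (hle h8 0) (by decide)
    rw [((Nat.dvd_prime Nat.prime_two).1 h6).resolve_left h7] at h5
    have h8 : (blkStab (ind Y)).index = 35 := by
      have : Nat.choose 8 4 = 70 := by decide
      omega
    refine ⟨_, h4, fun r hr hπ hd => ?_⟩
    rw [h8] at hd
    have h9 : r ≤ 8 := (Nat.Prime.dvd_factorial hr).1 (hd.trans (by decide : 35 ∣ 8 !))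
    rcases (h r hr h9).1 hπ with rfl | rfl
    · exact absurd hd (by decide)
    · exact absurd hd (by decide)

theorem fix_of_mem_W_singleton {a : α} {g : Perm α} (hn : 3 ≤ Fintype.card α)
    (hg : g ∈ blkStab (ind {a})) : g a = a := by
  by_contra hne
  obtain ⟨y, hy⟩ := Finset.card_pos.1 (show 0 < ({a, g⁻¹ a}ᶜ : Finset α).card by
    have := Finset.card_le_two (a := a) (b := g⁻¹ a)
    rw [Finset.card_compl]; omega)
  simp only [Finset.mem_compl, Finset.mem_insert, Finset.mem_singleton, not_or] at hy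
  have h1 : g y ≠ a := fun h => hy.2 (by rw [← h]; simp)
  have := hg a y
  simp [ind_eq_iff, hne, h1, hy.1] at this

theorem exists_bad_subgroup {n c : ℕ} (h : HallType π n c) (h2 : TwoPr π n) :
    ∃ U : Subgroup (Perm (Fin n)), PiNum π (Nat.card U) ∧
      ∀ X : Finset (Fin n), X.card = c → ¬ U ⊓ alternatingGroup (Fin n) ≤ blkStab (ind X) := by
  have h5 := h.five_le h2
  have h23 : ∀ a b : ℕ, PiNum π (2 ^ a * 3 ^ b) := fun a b =>
    (PiNum.prime_pow Nat.prime_two (h.two_mem h2) a).mul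
      (PiNum.prime_pow Nat.prime_three (h.three_mem h2) b)
  have hf := fun m => h.piNum_factorial h2 (m := m)
  rcases h with ⟨hp, h, rfl⟩ | ⟨⟨rfl, rfl⟩ | ⟨rfl, rfl⟩, h⟩
  · obtain ⟨Y, -, hY⟩ := Finset.exists_subset_card_eq (s := (Finset.univ : Finset (Fin n)))
      (n := 2) (by simp; omega)
    refine ⟨fibStab (ind Y), ?_, fun X hX hle => ?_⟩
    · rw [card_fibStab_ind, hY, Fintype.card_fin]
      exact (hf _ (by omega)).mul (hf _ (by omega))
    obtain ⟨x, rfl⟩ := Finset.card_eq_one.1 hX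
    have key : ∀ a b c d : Fin n, a ∈ Y → b ∈ Y → a ≠ b → c ∉ Y → d ∉ Y → c ≠ d →
        (swap a b * swap c d) x = x := by
      intro a b c d ha hb hab hc hd hcd
      apply fix_of_mem_W_singleton (by simp; omega) (hle ⟨mul_mem (swap_mem_fibStab ?_)
        (swap_mem_fibStab ?_), ?_⟩)
      · simp [ind_eq_iff, ha, hb]
      · simp [ind_eq_iff, hc, hd]
      · simp [mem_alternatingGroup, sign_swap hab, sign_swap hcd]
    have hYc : 1 < Yᶜ.card := by rw [Finset.card_compl, Fintype.card_fin]; omega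
    by_cases hx : x ∈ Y
    · obtain ⟨b, hb, hbx⟩ := Finset.exists_mem_ne (show 1 < Y.card by omega) x
      obtain ⟨c, hc, d, hd, hcd⟩ := Finset.one_lt_card.1 hYc
      rw [Finset.mem_compl] at hc hd
      have := key x b c d hx hb hbx.symm hc hd hcd
      rw [Perm.mul_apply, swap_apply_of_ne_of_ne (ne_of_mem_of_not_mem hx hc)
        (ne_of_mem_of_not_mem hx hd),
        swap_apply_left] at this
      exact hbx this
    · obtain ⟨d, hd, hdx⟩ := Finset.exists_mem_ne hYc x
      obtain ⟨a, ha, b, hb, hab⟩ := Finset.one_lt_card.1 (show 1 < Y.card by omega)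
      rw [Finset.mem_compl] at hd
      have := key a b x d ha hb hab hx hd hdx.symm
      rw [Perm.mul_apply, swap_apply_left,
        swap_apply_of_ne_of_ne (ne_of_mem_of_not_mem ha hd).symm (ne_of_mem_of_not_mem hb hd).symm] at this
      exact hdx this
  · let f : Fin 7 → Fin 3 := ![0, 0, 0, 1, 1, 1, 2]
    refine ⟨blkStab f, ?_, fun X hX hle => ?_⟩
    · refine (h23 3 3).of_dvd ((card_blkStab_dvd (by decide)).trans ?_)
      rw [card_fibStab]
      decide
    · have h1 := hle (x := swap 0 1 * swap 1 2) ⟨by change ∀ x y, _; decide, by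
        simp [mem_alternatingGroup]⟩
      have h2 := hle (x := swap 3 4 * swap 4 5) ⟨by change ∀ x y, _; decide, by
        simp [mem_alternatingGroup]⟩
      have h3 := hle (x := swap 0 3 * swap 1 4 * swap 2 5 * swap 0 1)
        ⟨by change ∀ x y, _; decide, by simp [mem_alternatingGroup]⟩
      rw [mem_blkStab] at h1 h2 h3
      clear hle
      revert X
      decide +kernel
  · let f : Fin 8 → Fin 3 := ![0, 0, 0, 1, 1, 1, 2, 2]
    refine ⟨blkStab f, ?_, fun X hX hle => ?_⟩
    · refine (h23 4 3).of_dvd ((card_blkStab_dvd (by decide)).trans ?_)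
      rw [card_fibStab]
      decide
    · have h1 := hle (x := swap 0 1 * swap 1 2) ⟨by change ∀ x y, _; decide, by
        simp [mem_alternatingGroup]⟩
      have h2 := hle (x := swap 3 4 * swap 4 5) ⟨by change ∀ x y, _; decide, by
        simp [mem_alternatingGroup]⟩
      have h3 := hle (x := swap 0 1 * swap 6 7)
        ⟨by change ∀ x y, _; decide, by simp [mem_alternatingGroup]⟩
      rw [mem_blkStab] at h1 h2 h3
      clear hle
      revert X
      decide +kernel

theorem not_isD_alt {n : ℕ} (h2 : TwoPr π n) (h3 : ¬ AllPr π n) :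
    ¬ IsDPiGroup π (alternatingGroup (Fin n)) := by
  intro hD
  have h2' : TwoPr π (Fintype.card (Fin n)) := by rwa [Fintype.card_fin]
  have h3' : ¬ AllPr π (Fintype.card (Fin n)) := by rwa [Fintype.card_fin]
  obtain ⟨M, hM⟩ := (isC_of_isD hD).1
  obtain ⟨X, hX, -⟩ := (AH.of_alt hM).classify h2' h3'
  obtain ⟨U, hU, hbad⟩ := exists_bad_subgroup (by rwa [Fintype.card_fin] at hX) h2
  obtain ⟨K, hUK, hK⟩ := exists_maximal_pi_ge (π := π)
    (U := U.subgroupOf (alternatingGroup (Fin n))) (by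
      rw [← inf_subgroupOf_right, Nat.card_congr (subgroupOfEquivOfLe inf_le_right).toEquiv]
      exact hU.of_dvd (card_dvd_of_le inf_le_left))
  obtain ⟨Y, hY, hle⟩ := (AH.of_alt (isPiHall_of_isD hD hK)).classify h2' h3'
  exact hbad Y (hY.unique hX) fun g hg => hle ⟨⟨g, hg.2⟩, hUK hg.1, rfl⟩

end Cfsg.Agent.H1
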