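import Mathlib.Data.Nat.Multiplicity
import Mathlib.Data.Nat.Choose.Lucas
import Mathlib.Data.Nat.Factorization.Basic
import Mathlib.Data.Nat.Prime.Factorial
import Mathlib.Data.Nat.Choose.Central
import Mathlib.Tactic

/-! Number theory for the Hall subgroups of symmetric groups. -/

set_option autoImplicit false

namespace Cfsg.Agent.H1

open Nat Finset

theorem asc_split (u e : ℕ) :
    (2 * u + 1).ascFactorial (2 * e + 1) =
      (∏ j ∈ range (e + 1), (2 * u + 1 + 2 * j)) * (2 ^ e * (u + 1).ascFactorial e) := by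
  induction e with
  | zero => simp [ascFactorial_succ]
  | succ e ih =>
    rw [show 2 * (e + 1) + 1 = (2 * e + 1) + 1 + 1 by ring, ascFactorial_succ, ascFactorial_succ,
      ih, prod_range_succ _ (e + 1), ascFactorial_succ]
    ring

theorem prod_two_mul_asc (y e : ℕ) :
    ∏ j ∈ range e, (2 * y + 2 * j) = 2 ^ e * y.ascFactorial e := by
  induction e with
  | zero => simp
  | succ e ih => rw [prod_range_succ, ih, ascFactorial_succ]; ring

theorem odd_dvd_prod_odds {N u e : ℕ} (hN : Odd N) (hd : N ∣ e !) :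
    N ∣ ∏ j ∈ range e, (2 * u + 1 + 2 * j) := by
  obtain ⟨t, ht⟩ := hN
  have h1 : ∏ j ∈ range e, (2 * u + 1 + 2 * j) ≡ ∏ j ∈ range e, (2 * (u + t + 1) + 2 * j) [MOD N] := by
    clear hd
    induction e with
    | zero => rfl
    | succ e ih =>
      rw [prod_range_succ, prod_range_succ]
      apply ih.mul
      rw [show 2 * (u + t + 1) + 2 * e = (2 * u + 1 + 2 * e) + N by omega]
      simp [Nat.ModEq]
  rw [prod_two_mul_asc] at h1
  have h2 : N ∣ 2 ^ e * (u + t + 1).ascFactorial e :=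
    (hd.trans (factorial_dvd_ascFactorial _ _)).mul_left _
  exact (Nat.modEq_zero_iff_dvd.1 (h1.trans (Nat.modEq_zero_iff_dvd.2 h2)))

theorem exists_odd_part_factorial (e : ℕ) : ∃ N : ℕ, Odd N ∧ N ∣ (e + 1)! ∧ (e + 1)! ≤ 2 ^ e * N := by
  obtain ⟨t, N, hN, h⟩ := Nat.exists_eq_two_pow_mul_odd (factorial_ne_zero (e + 1))
  refine ⟨N, hN, ⟨2 ^ t, by rw [h]; ring⟩, ?_⟩
  have h1 : emultiplicity 2 (e + 1)! < (e + 1 : ℕ) := emultiplicity_two_factorial_lt (by omega)
  have h2 : (t : ℕ∞) ≤ emultiplicity 2 (e + 1)! := by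
    rw [← pow_dvd_iff_le_emultiplicity]; exact ⟨N, h⟩
  have h3 : t < e + 1 := by exact_mod_cast h2.trans_lt h1
  rw [h]
  exact Nat.mul_le_mul_right _ (Nat.pow_le_pow_right (by norm_num) (by omega))

theorem asc_lt_asc {a b e : ℕ} (ha : 0 < a) (h : a < b) (he : 0 < e) :
    a.ascFactorial e < b.ascFactorial e := by
  obtain ⟨e, rfl⟩ : ∃ e', e = e' + 1 := ⟨e - 1, by omega⟩
  rw [ascFactorial_succ, ascFactorial_succ]
  obtain ⟨a, rfl⟩ : ∃ a', a = a' + 1 := ⟨a - 1, by omega⟩
  exact Nat.mul_lt_mul_of_lt_of_le' (by omega) (ascFactorial_le _ h.le) (ascFactorial_pos a e)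

theorem coprime_of_no_small_prime {C m x : ℕ} (hC : ∀ l : ℕ, l.Prime → l ≤ m → ¬ l ∣ C)
    (hx : ∀ l : ℕ, l.Prime → l ∣ x → l ≤ m) : x.Coprime C := by
  apply Nat.coprime_of_dvd
  intro l hl h1 h2
  exact hC l hl (hx l hl h1) h2

theorem prime_le_of_dvd_two_mul {l y m : ℕ} (hl : l.Prime) (hm : 2 ≤ m) (hy : 0 < y) (hym : y ≤ m)
    (h : l ∣ 2 * y) : l ≤ m := by
  rcases (Nat.Prime.dvd_mul hl).1 h with h | h
  · exact (Nat.le_of_dvd (by norm_num) h).trans hm
  · exact (Nat.le_of_dvd hy h).trans hym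

/-- If `2 ≤ k ≤ m`, some prime `≤ m` divides `C(m+k, k)` unless `m = 4`, `k = 3`. -/
theorem exists_prime_dvd_choose {m k : ℕ} (hk : 2 ≤ k) (hkm : k ≤ m) (h43 : ¬ (m = 4 ∧ k = 3)) :
    ∃ l : ℕ, l.Prime ∧ l ≤ m ∧ l ∣ (m + k).choose k := by
  by_contra hcon
  push Not at hcon
  set C := (m + k).choose k with hCdef
  have hm : 2 ≤ m := hk.trans hkm
  have cop : ∀ y : ℕ, 0 < y → y ≤ m → (2 * y).Coprime C := fun y hy hym =>
    coprime_of_no_small_prime hcon fun l hl h => prime_le_of_dvd_two_mul hl hm hy hym h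
  obtain ⟨k1, rfl⟩ : ∃ k1, k = k1 + 1 := ⟨k - 1, by omega⟩
  have e1 : C * (k1 + 1) = (m + (k1 + 1)).choose k1 * (m + 1) := by
    rw [hCdef, choose_succ_right_eq]; congr 1; omega
  have e2 : (m + k1 + 1) * (m + k1).choose k1 = C * (k1 + 1) := add_one_mul_choose_eq _ _
  -- `m` is even
  have hme : Even m := by
    by_contra ho
    obtain ⟨y, hy⟩ := Nat.not_even_iff_odd.1 ho
    have h1 : (m + 1).Coprime C := by
      rw [show m + 1 = 2 * (y + 1) by omega]; exact cop _ (by omega) (by omega)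
    have h2 : m + 1 ∣ C * (k1 + 1) := by rw [e1]; exact Dvd.intro_left _ rfl
    have := Nat.le_of_dvd (by omega) (h1.dvd_of_dvd_mul_left h2)
    omega
  have hke : Even k1 := by
    by_contra ho
    obtain ⟨y, hy⟩ := Nat.not_even_iff_odd.1 ho
    obtain ⟨u, hu⟩ := hme
    have h1 : (m + k1 + 1).Coprime C := by
      rw [show m + k1 + 1 = 2 * (u + y + 1) by omega]; exact cop _ (by omega) (by omega)
    have h2 : m + k1 + 1 ∣ C * (k1 + 1) := by rw [← e2]; exact Dvd.intro _ rfl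
    have := Nat.le_of_dvd (by omega) (h1.dvd_of_dvd_mul_left h2)
    omega
  obtain ⟨u, hu⟩ := hme
  obtain ⟨e, he⟩ := hke
  have hu' : m = 2 * u := by omega
  have he' : k1 = 2 * e := by omega
  subst hu' he'
  have hue : e + 1 ≤ u := by omega
  have he0 : 0 < e := by omega
  have e3 : (2 * u + 1).ascFactorial (2 * e + 1) = (2 * e + 1)! * C :=
    ascFactorial_eq_factorial_mul_choose _ _
  obtain ⟨N, hNo, hNd, hNle⟩ := exists_odd_part_factorial e
  have hNO := odd_dvd_prod_odds (u := u) hNo hNd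
  have hdv : N * (2 ^ e * (u + 1).ascFactorial e) ∣ (2 * e + 1)! * C := by
    rw [← e3, asc_split]; exact Nat.mul_dvd_mul_right hNO _
  have hcop : (N * (2 ^ e * (u + 1).ascFactorial e)).Coprime C := by
    apply coprime_of_no_small_prime hcon
    intro l hl h
    rcases (Nat.Prime.dvd_mul hl).1 h with h | h
    · have := (Nat.Prime.dvd_factorial hl).1 (h.trans hNd); omega
    rcases (Nat.Prime.dvd_mul hl).1 h with h | h
    · have := Nat.le_of_dvd (by norm_num) (hl.dvd_of_dvd_pow h); omega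
    · have h1 : (u + 1).ascFactorial e ∣ (u + e)! := by
        rw [← factorial_mul_ascFactorial]; exact Dvd.intro_left _ rfl
      have := (Nat.Prime.dvd_factorial hl).1 (h.trans h1); omega
  have hle := Nat.le_of_dvd (factorial_pos _) (hcop.dvd_of_dvd_mul_right hdv)
  have hueq : u = e + 1 := by
    by_contra hne
    have h1 : (e + 1 + 1).ascFactorial e < (u + 1).ascFactorial e :=
      asc_lt_asc (by omega) (by omega) he0
    have h2 : (e + 1)! * (e + 1 + 1).ascFactorial e = (2 * e + 1)! := by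
      rw [factorial_mul_ascFactorial]; congr 1; omega
    have h3 : (e + 1)! * (e + 1 + 1).ascFactorial e < (e + 1)! * (u + 1).ascFactorial e :=
      Nat.mul_lt_mul_of_pos_left h1 (factorial_pos _)
    have h4 : (e + 1)! * (u + 1).ascFactorial e ≤ 2 ^ e * N * (u + 1).ascFactorial e :=
      Nat.mul_le_mul_right _ hNle
    have h5 : 2 ^ e * N * (u + 1).ascFactorial e = N * (2 ^ e * (u + 1).ascFactorial e) := by ring
    omega
  subst hueq
  obtain ⟨e1', rfl⟩ : ∃ e', e = e' + 1 := ⟨e - 1, by omega⟩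
  have e4 : (2 * (e1' + 1 + 1) + (2 * (e1' + 1) + 1)).choose (2 * e1' + 1 + 1) * (2 * e1' + 1 + 1) =
      (2 * (e1' + 1 + 1) + (2 * (e1' + 1) + 1)).choose (2 * e1' + 1) * (2 * (e1' + 3)) := by
    rw [choose_succ_right_eq]; congr 1; omega
  have h6 : 2 * (e1' + 3) ∣ C * ((2 * (e1' + 1) + 1) * (2 * e1' + 1 + 1)) := by
    rw [← mul_assoc, e1, mul_right_comm, show 2 * (e1' + 1) = 2 * e1' + 1 + 1 by ring]
    rw [show 2 * (e1' + 1) = 2 * e1' + 1 + 1 by ring] at e4
    rw [e4]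
    exact (Dvd.intro_left _ rfl).mul_right _
  have h7 := (cop (e1' + 3) (by omega) (by omega)).dvd_of_dvd_mul_left h6
  have h8 : 2 * (e1' + 3) ∣ 12 + 2 * (e1' + 3) * (2 * e1' + 5) - 2 * (e1' + 3) * 6 := by
    convert h7 using 1
    apply Nat.sub_eq_of_eq_add; ring
  have h9 : 2 * (e1' + 3) ∣ 12 := by
    have h10 : 2 * (e1' + 3) ∣ 12 + 2 * (e1' + 3) * (2 * e1' + 5) := by
      have h11 : 2 * (e1' + 3) * 6 ≤ 12 + 2 * (e1' + 3) * (2 * e1' + 5) := by nlinarith
      rw [← Nat.sub_add_cancel h11]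
      exact Nat.dvd_add h8 (Dvd.intro _ rfl)
    exact (Nat.dvd_add_left (Dvd.intro _ rfl)).1 h10
  have h12 := Nat.le_of_dvd (by norm_num) h9
  have h13 : e1' ≤ 3 := by omega
  interval_cases e1'
  · exact h43 ⟨rfl, rfl⟩
  · omega
  · omega
  · exact hcon 2 Nat.prime_two (by norm_num) (by rw [hCdef]; decide)

theorem not_dvd_choose_add {p k : ℕ} (hp : p.Prime) (hk : k < p) : ¬ p ∣ (p + k).choose k := by
  intro h
  have h1 : (p + 1).ascFactorial k = k ! * (p + k).choose k := ascFactorial_eq_factorial_mul_choose _ _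
  have h2 : p ∣ (p + 1).ascFactorial k := by rw [h1]; exact h.mul_left _
  rw [ascFactorial_eq_prod_range] at h2
  obtain ⟨j, hj, h3⟩ := (Prime.dvd_finsetProd_iff hp.prime _).1 h2
  rw [mem_range] at hj
  rw [add_assoc] at h3
  have := Nat.le_of_dvd (by omega) ((Nat.dvd_add_right (dvd_refl p)).1 h3)
  omega

theorem two_dvd_choose_self {m : ℕ} (hm : 0 < m) : 2 ∣ (m + m).choose m := by
  have := Nat.two_dvd_centralBinom_of_one_le hm
  rwa [Nat.centralBinom_eq_two_mul_choose, two_mul] at this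

/-- `(a b)! = a!^b b! ∏ C(j a - 1, a - 1)`. -/
theorem factorial_mul_eq_prod (a b : ℕ) :
    ((a + 1) * b)! = (a + 1)! ^ b * b ! * ∏ j ∈ range b, ((a + 1) * j + a).choose a := by
  induction b with
  | zero => simp
  | succ b ih =>
    have h1 : ((a + 1) * b + a + 1) * ((a + 1) * b + a).choose a =
        ((a + 1) * b + a + 1).choose (a + 1) * (a + 1) := add_one_mul_choose_eq _ _
    have h2 : ((a + 1) * b + (a + 1)).choose (a + 1) * ((a + 1) * b)! * (a + 1)! =
        ((a + 1) * b + (a + 1))! := add_choose_mul_factorial_mul_factorial _ _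
    have h3 : ((a + 1) * b + (a + 1)).choose (a + 1) = (b + 1) * ((a + 1) * b + a).choose a := by
      apply Nat.eq_of_mul_eq_mul_right (show 0 < a + 1 by omega)
      rw [← add_assoc, ← h1]; ring
    rw [mul_add, mul_one, ← h2, h3, ih, prod_range_succ, factorial_succ b]
    ring

end Cfsg.Agent.H1
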