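import Cfsg.Agent.H1.He2
import Cfsg.Agent.BS.Basic

/-! Held's theorem: Sylow subgroup, weak closure and control of fusion. -/

set_option autoImplicit false

namespace Cfsg.Agent.H1.He

open Subgroup Cfsg.Agent.FT Cfsg.Agent.H4

/-- the hypothesis: `ι` identifies the model with the centralizer of `ι z` -/
structure Hs {G : Type*} [Group G] (ι : HC →* G) : Prop where
  inj : Function.Injective ι
  cen : ∀ g, g * ι z = ι z * g → ∃ h, ι h = g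

theorem zc (h : HC) : h * z = z * h := HC.ext' h.val.2.2
theorem zz : z * z = 1 ∧ z ≠ 1 ∧ z ∈ W0 ∧ t ∈ W0 ∧ x13 ∈ R1 ∧ x13 ∉ R2 ∧ x35 ∈ R2 ∧
    x12 ∈ T0 ∧ x23 ∈ T0 ∧ x34 ∈ T0 ∧ x45 ∈ T0 := by decide +kernel

theorem pT0 : IsPGroup 2 T0 := IsPGroup.of_card (n := 10) card_pat

/-- normalizing a pattern subgroup -/
theorem mem_norm_pat {l : List ℕ} {M k : ℕ} {H : POK l M k} {g : HC}
    (h : ∀ p ∈ l, g * x p * g⁻¹ ∈ pat H) : g ∈ 𝐍(pat H) :=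
  mem_normalizer_of_cj_le (cj_le_iff_le_cj_inv.2 (pat_le fun p hp => by
    rw [mem_cj, inv_inv]; exact h p hp))

theorem T_norm {l : List ℕ} {M k : ℕ} {H : POK l M k}
    (h : ∀ p ∈ lT, ∀ q ∈ l, x p * x q * x p ∈ pat H) : T0 ≤ 𝐍(pat H) :=
  pat_le fun p hp => mem_norm_pat fun q hq => by
    rw [inv_eq_of_mul_eq_one_right (xx p hp).1]; exact h p hp q hq

theorem nrmT {g : HC} (hg : g ∈ 𝐍(T0)) : g ∈ T0 := by
  obtain ⟨i, hi, τ, hτ, rfl⟩ := cover g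
  rcases nrmT0 i hi with h | ⟨p, hp, h⟩
  · exact mul_mem h hτ
  · have h1 : w i ∈ 𝐍(T0) := by simpa using mul_mem hg (inv_mem (le_normalizer hτ))
    exact absurd (w_inv i ▸ conj_mem_of_mem_normalizer h1 (xx p hp).2) h

theorem all_norm {l : List ℕ} {M k : ℕ} {H : POK l M k}
    (h : (∀ p ∈ lT, ∀ q ∈ l, x p * x q * x p ∈ pat H) ∧ ∀ i < 21, ∀ q ∈ l, w i * x q * w' i ∈ pat H)
    (g : HC) : g ∈ 𝐍(pat H) := by
  obtain ⟨i, hi, τ, hτ, rfl⟩ := cover g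
  exact mul_mem (mem_norm_pat fun q hq => w_inv i ▸ h.2 i hi q hq) (T_norm h.1 hτ)

/-- the two elementary abelian subgroups of order 64 -/
def IsR (R : Subgroup HC) : Prop := R = R1 ∨ R = R2

theorem IsR.card {R : Subgroup HC} (h : IsR R) : ♯R = 64 := by rcases h with rfl | rfl <;> exact card_pat
theorem IsR.ab {R : Subgroup HC} (h : IsR R) : ∀ a ∈ R, a * a = 1 ∧ ∀ b ∈ R, a * b = b * a := by
  rcases h with rfl | rfl; exacts [ab1, ab2]
theorem IsR.leJ {R : Subgroup HC} (h : IsR R) : R ≤ J0 := by rcases h with rfl | rfl; exacts [R1J, R2J]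
theorem IsR.leT {R : Subgroup HC} (h : IsR R) : R ≤ T0 := h.leJ.trans JT
theorem IsR.W {R : Subgroup HC} (h : IsR R) : W0 ≤ R := by rcases h with rfl | rfl; exacts [WR1, WR2]
theorem IsR.nrm {R : Subgroup HC} (h : IsR R) : T0 ≤ 𝐍(R) := by
  rcases h with rfl | rfl; exacts [T_norm nR1, T_norm nR2]
theorem IsR.cent {R : Subgroup HC} (h : IsR R) {g : HC} (hg : ∀ a ∈ R, a * g = g * a) : g ∈ R := by
  have h1 := cent_t (hg t (h.W zz.2.2.2.1)).symm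
  rcases h with rfl | rfl
  · exact cR1 g h1 fun p hp => hg _ (memx.1 p hp)
  · exact cR2 g h1 fun p hp => hg _ (memx.2.1 p hp)

theorem isR_of {A : Subgroup HC} (hT : A ≤ T0) (hc : ♯A = 64)
    (h : ∀ a ∈ A, a * a = 1 ∧ ∀ b ∈ A, a * b = b * a) : IsR A := by
  classical
  have := Fintype.ofFinite HC
  have hJ : A ≤ J0 := fun a ha => by
    obtain ⟨n, hn, rfl⟩ := okT.enum (hT ha)
    refine (cnt0 n hn (sq0 n hn (h _ ha).1)).resolve_right (not_lt.2 ?_)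
    rw [countLt_eq, ← hc, Nat.card_eq_fintype_card, Fintype.card_subtype]
    refine Finset.card_le_card_of_injOn (fun b => ga lT b.c) (fun b hb => ?_) fun b hb c hc e1 => ?_
    · have hb' : b ∈ A := by simpa using hb
      obtain ⟨h1, h2⟩ := e_ga (hT hb')
      have h3 := sq0 _ h1 (by rw [h2]; exact (h _ hb').1)
      simp only [Finset.coe_filter, Finset.mem_range, Set.mem_ofPred_eq, h1, h3, h2, true_and]
      exact decide_eq_true ((h _ ha).2 _ hb')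
    · have hb' : b ∈ A := by simpa using hb
      have hc' : c ∈ A := by simpa using hc
      rw [← (e_ga (hT hb')).2, ← (e_ga (hT hc')).2]; exact congrArg _ e1
  by_cases h1 : A ≤ R1
  · exact Or.inl (eq_of_le_of_card_ge h1 (hc ▸ card_pat.le))
  refine Or.inr (eq_of_le_of_card_ge (fun a ha => ?_) (hc ▸ card_pat.le))
  obtain ⟨b, hb, hb1⟩ := SetLike.not_le_iff_exists.1 h1
  have hb2 := (invJ b (hJ hb) (h b hb).1).resolve_left hb1
  rcases invJ a (hJ ha) (h a ha).1 with h2 | h2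
  · exact (comm12 a h2 b hb2 ((h a ha).2 b hb)).resolve_right hb1
  · exact h2

/-- every involution of the model is conjugate to a representative -/
theorem cls' {y : HC} (hT : y ∈ T0) (h : y * y = 1) : cw y * rp (cl y) * (cw y)⁻¹ = y := by
  rw [(cls y hT h).2, mul_inv_cancel_right]

variable {G : Type*} [Group G] {ι : HC →* G}

theorem Hs.mem_map (H : Hs ι) {K : Subgroup HC} {a : HC} : ι a ∈ K.map ι ↔ a ∈ K :=
  mem_map_iff_mem H.inj

theorem Hs.comm (H : Hs ι) {a b : HC} (h : ι a * ι b = ι b * ι a) : a * b = b * a :=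
  H.inj (by rw [map_mul, map_mul, h])

theorem zc' (h : HC) : ι h * ι z = ι z * ι h := by rw [← map_mul, zc, map_mul]

theorem Hs.card_map (H : Hs ι) (K : Subgroup HC) : ♯(K.map ι) = ♯K := card_map_of_injective H.inj

theorem map_norm {K : Subgroup HC} {a : HC} (h : a ∈ 𝐍(K)) : ι a ∈ 𝐍(K.map ι) :=
  le_normalizer_map ι ⟨a, h, rfl⟩

theorem pT (ι : HC →* G) : IsPGroup 2 (T0.map ι) := pT0.map ι

variable [Finite G]

theorem Hs.normT (H : Hs ι) {g : G} (hg : g ∈ 𝐍(T0.map ι)) : g ∈ T0.map ι := by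
  obtain ⟨y, hy, e⟩ := conj_mem_of_mem_normalizer hg (mem_map_of_mem ι (JT (R1J (WR1 zz.2.2.1))))
  have h1 : ∀ a ∈ T0, y * a = a * y := fun a ha => by
    obtain ⟨b, -, e1⟩ := conj_mem_of_mem_normalizer' hg (mem_map_of_mem ι ha)
    refine H.comm ?_
    have e2 : ι a = g * ι b * g⁻¹ := by rw [e1]; group
    rw [e, e2, conj_mul, conj_mul, zc']
  rcases ctrT y hy (h1 _ zz.2.2.2.2.2.2.2.1) (h1 _ zz.2.2.2.2.2.2.2.2.1) (h1 _ zz.2.2.2.2.2.2.2.2.2.1)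
    (h1 _ zz.2.2.2.2.2.2.2.2.2.2) with rfl | rfl
  · rw [map_one, eq_comm, conj_eq_one_iff, ← map_one ι] at e
    exact absurd (H.inj e) zz.2.1
  · obtain ⟨h, rfl⟩ := H.cen g (by rw [← mul_inv_eq_iff_eq_mul, ← e])
    refine mem_map_of_mem ι (nrmT (mem_normalizer_of_conj_mem fun a ha => H.mem_map.1 ?_))
    rw [map_mul, map_mul, map_inv]
    exact conj_mem_of_mem_normalizer hg (mem_map_of_mem ι ha)

theorem Hs.syl (H : Hs ι) {K : Subgroup G} (hK : T0.map ι ≤ K) : Syl 2 (T0.map ι) K :=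
  (Syl.refl (pT ι)).of_normalizer_le hK fun _ hg => H.normT hg.2

/-- involutions of an overgroup of the centralizer -/
theorem Hs.inv_cls (H : Hs ι) {K : Subgroup G} (hK : ∀ h, ι h ∈ K) {y : G} (hy : y ∈ K)
    (h2 : y * y = 1) : ∃ g ∈ K, ∃ k < 9, g * ι (rp k) * g⁻¹ = y := by
  obtain ⟨g, hg, h1⟩ := (H.syl (K := K) (map_le_iff_le_comap.2 fun h _ => hK h)).exists_cj_le
    (isPGroup_zpowers (k := 1) (by rw [pow_one, pow_two, h2])) (zpowers_le.2 hy)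
  obtain ⟨a, ha, e⟩ := h1 (conj_mem_cj (mem_zpowers y))
  have h3 : a * a = 1 := H.inj (by rw [map_mul, e, conj_mul, h2, map_one, mul_one, mul_inv_cancel])
  refine ⟨g⁻¹ * ι (cw a), mul_mem (inv_mem hg) (hK _), _, (cls a ha h3).1, ?_⟩
  have := congrArg ι (cls' ha h3)
  rw [map_mul, map_mul, map_inv, e] at this
  calc _ = g⁻¹ * (ι (cw a) * ι (rp (cl a)) * (ι (cw a))⁻¹) * g := by group
    _ = y := by rw [this]; group

theorem Hs.cent_R (H : Hs ι) {R : Subgroup HC} (hR : IsR R) {g : G}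
    (hg : ∀ a ∈ R, ι a * g = g * ι a) : g ∈ R.map ι := by
  obtain ⟨h, rfl⟩ := H.cen g (hg z (hR.W zz.2.2.1)).symm
  exact mem_map_of_mem ι (hR.cent fun a ha => H.comm (hg a ha))

theorem Hs.not_cj (H : Hs ι) (g : G) : cj g (R1.map ι) ≠ R2.map ι := fun e => by
  have n1 : ∀ {R}, IsR R → T0.map ι ≤ 𝐍(R.map ι) := fun hR => by
    rintro _ ⟨a, ha, rfl⟩; exact map_norm (hR.nrm ha)
  obtain ⟨n, hn, h1⟩ := (H.syl (n1 (Or.inr rfl))).exists_cj_le (isPGroup_cj g (pT ι))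
    (by rw [← e, ← cj_normalizer]; exact cj_mono g (n1 (Or.inl rfl)))
  rw [← cj_mul] at h1
  have h2 := cj_eq_iff_mem_normalizer.2 (n1 (Or.inl rfl) (H.normT (mem_normalizer_of_cj_le h1)))
  rw [cj_mul, e, cj_eq_iff_mem_normalizer.2 hn] at h2
  exact zz.2.2.2.2.2.1 (H.mem_map.1 (h2 ▸ mem_map_of_mem ι zz.2.2.2.2.1))

theorem Hs.wc0 (H : Hs ι) {R : Subgroup HC} (hR : IsR R) {g : G}
    (h : cj g (R.map ι) ≤ T0.map ι) : g ∈ 𝐍(R.map ι) := by
  have e : ((cj g (R.map ι)).comap ι).map ι = cj g (R.map ι) :=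
    map_comap_eq_self (h.trans (map_le_range ι _))
  have hA : IsR ((cj g (R.map ι)).comap ι) := by
    refine isR_of (fun a ha => H.mem_map.1 (h ha)) (by rw [← H.card_map, e, card_cj, H.card_map, hR.card])
      fun a ha => ?_
    obtain ⟨a', ha', e1⟩ := mem_cj.1 ha
    have e2 : ι a = g * ι a' * g⁻¹ := by rw [e1]; group
    refine ⟨H.inj (by rw [map_mul, e2, conj_mul, ← map_mul, (hR.ab _ ha').1]; simp), fun b hb => ?_⟩
    obtain ⟨b', hb', e3⟩ := mem_cj.1 hb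
    have e4 : ι b = g * ι b' * g⁻¹ := by rw [e3]; group
    refine H.comm ?_
    rw [e2, e4, conj_mul, conj_mul, ← map_mul, (hR.ab _ ha').2 _ hb', map_mul]
  rw [← cj_eq_iff_mem_normalizer, ← e]
  rcases hA with e1 | e1 <;> rw [e1] at e ⊢ <;> rcases hR with rfl | rfl
  · rfl
  · exact absurd (by rw [e, cj_inv_cj]) (H.not_cj g⁻¹)
  · exact absurd e.symm (H.not_cj g)
  · rfl

/-- weak closure -/
theorem Hs.wc (H : Hs ι) {R : Subgroup HC} (hR : IsR R) {g : G} {Q : Subgroup G}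
    (hQ : IsPGroup 2 Q) (h1 : R.map ι ≤ Q) (h2 : cj g (R.map ι) ≤ Q) : g ∈ 𝐍(R.map ι) := by
  obtain ⟨s, -, h⟩ := (H.syl le_top).exists_cj_le hQ le_top
  have h3 := H.wc0 hR ((cj_mono s h1).trans h)
  have h4 := H.wc0 hR (g := s * g) (by rw [cj_mul]; exact (cj_mono s h2).trans h)
  simpa using mul_mem (inv_mem h3) h4

theorem fus {B : Subgroup G} (hB : IsPGroup 2 B) {y g : G} (h1 : B ≤ 𝐂[y])
    (h2 : B ≤ 𝐂[g * y * g⁻¹]) : ∃ n : G, n * y * n⁻¹ = g * y * g⁻¹ ∧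
      ∃ Q : Subgroup G, IsPGroup 2 Q ∧ B ≤ Q ∧ cj n B ≤ Q := by
  obtain ⟨P, hP, h3⟩ := exists_syl_ge hB h2
  obtain ⟨c, hc, h4⟩ := hP.exists_cj_le (isPGroup_cj g hB) (by rw [← cj_cent1]; exact cj_mono g h1)
  refine ⟨c * g, ?_, P, hP.isPGroup, h3, by rwa [cj_mul]⟩
  rw [mem_cent1_iff] at hc
  calc _ = c * (g * y * g⁻¹) * c⁻¹ := by group
    _ = _ := by rw [hc, mul_inv_cancel_right]

/-- fusion in `R` -/
theorem Hs.fusR (H : Hs ι) {R : Subgroup HC} (hR : IsR R) {a b : HC} (ha : a ∈ R) (hb : b ∈ R)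
    (h : IsConj (ι a) (ι b)) : ∃ n ∈ 𝐍(R.map ι), n * ι a * n⁻¹ = ι b := by
  obtain ⟨g, e⟩ := isConj_iff.1 h
  have h1 : ∀ a ∈ R, R.map ι ≤ 𝐂[ι a] := by
    rintro a ha _ ⟨c, hc, rfl⟩
    rw [mem_cent1_iff, ← map_mul, (hR.ab c hc).2 a ha, map_mul]
  obtain ⟨n, h2, Q, h3, h4, h5⟩ := fus ((pT ι).to_le (map_mono hR.leT)) (h1 a ha) (e ▸ h1 b hb)
  exact ⟨n, H.wc hR h3 h4 h5, h2.trans e⟩

theorem cJW : ∀ a ∈ W0, J0 ≤ 𝐂[a] := forall_pat fun n hn => pat_le fun p hp => mem_cent1_iff.2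
  ((by decide +kernel : ∀ n < 16, ∀ p ∈ lJ, x p * e lW n = e lW n * x p) n hn p hp)

/-- fusion in `W` -/
theorem Hs.fusW (H : Hs ι) {a b : HC} (ha : a ∈ W0) (hb : b ∈ W0) (h : IsConj (ι a) (ι b)) :
    ∃ n, n ∈ 𝐍(R1.map ι) ∧ n ∈ 𝐍(R2.map ι) ∧ n * ι a * n⁻¹ = ι b := by
  obtain ⟨g, e⟩ := isConj_iff.1 h
  have h1 : ∀ a ∈ W0, J0.map ι ≤ 𝐂[ι a] := by
    rintro a ha _ ⟨c, hc, rfl⟩
    rw [mem_cent1_iff, ← map_mul, mem_cent1_iff.1 (cJW a ha hc), map_mul]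
  obtain ⟨n, h2, Q, h3, h4, h5⟩ := fus ((pT ι).to_le (map_mono JT)) (h1 a ha) (e ▸ h1 b hb)
  have h6 : ∀ {R}, IsR R → n ∈ 𝐍(R.map ι) := fun hR =>
    H.wc hR h3 ((map_mono hR.leJ).trans h4) ((cj_mono n (map_mono hR.leJ)).trans h5)
  exact ⟨n, h6 (Or.inl rfl), h6 (Or.inr rfl), h2.trans e⟩

end Cfsg.Agent.H1.He
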