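import Cfsg.Agent.H1.He3
import Cfsg.Agent.H3.ZStar

/-! Held's theorem: the fusion of involutions. -/

set_option autoImplicit false

namespace Cfsg.Agent.H1.He

open Subgroup Cfsg.Agent.FT Cfsg.Agent.H4

variable {G : Type*} [Group G] {ι : HC →* G}

theorem dih [Finite G] {a b : G} (ha : a * a = 1) (hb : b * b = 1) (h : ¬ Odd (orderOf (a * b))) :
    ∃ w : G, w * w = 1 ∧ w ≠ 1 ∧ w * a = a * w ∧ w * b = b * w ∧
      (IsConj a (a * w) ∧ IsConj b (b * w) ∨ IsConj b (a * w)) := by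
  obtain ⟨h1, h2, h3⟩ := H3.half_pow_central ha hb (Nat.not_odd_iff_even.1 h)
  refine ⟨_, BS.sq1 h1, BS.ne1 h1, h2, h3, ?_⟩
  rcases Nat.even_or_odd' (orderOf (a * b) / 2) with ⟨m, e | e⟩
  · refine Or.inl ⟨by rw [e]; exact H3.isConj_mul_pow_even ha hb m, ?_⟩
    rw [← BS.inv2 h1, ← inv_pow, mul_inv_rev, inv_eq_of_mul_eq_one_right ha,
      inv_eq_of_mul_eq_one_right hb, e]
    exact H3.isConj_mul_pow_even hb ha m
  · exact Or.inr (by rw [e]; exact H3.isConj_mul_pow_odd ha hb m)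

theorem hs_id : Hs (MonoidHom.id HC) := ⟨fun _ _ h => h, fun g _ => ⟨g, rfl⟩⟩

theorem cls_all {y : HC} (h : y * y = 1) : ∃ g : HC, ∃ k < 9, g * rp k * g⁻¹ = y := by
  obtain ⟨g, -, k, h1, h2⟩ := hs_id.inv_cls (K := ⊤) (fun _ => mem_top _) (mem_top y) h
  exact ⟨g, k, h1, h2⟩

theorem isConj_cj (g a : G) : IsConj a (g * a * g⁻¹) := isConj_iff.2 ⟨g, rfl⟩
theorem isConj_cj' (g a : G) : IsConj a (g⁻¹ * a * g) := isConj_iff.2 ⟨g⁻¹, by rw [inv_inv]⟩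

theorem isConj_map {a b : HC} (g : HC) (h : g * a * g⁻¹ = b) : IsConj (ι a) (ι b) :=
  ι.map_isConj (isConj_iff.2 ⟨g, h⟩)

theorem isConj_cl {a : HC} (hT : a ∈ T0) (h : a * a = 1) : IsConj (ι (rp (cl a))) (ι a) :=
  isConj_map _ (cls' hT h)

theorem sq_of_D {y : G} (h : IsConj (ι z) y) : y * y = 1 := by
  obtain ⟨g, rfl⟩ := isConj_iff.1 h
  rw [conj_mul, ← map_mul, zz.1]; simp

theorem Hs.ne_of_D (H : Hs ι) {y : G} (h : IsConj (ι z) y) : y ≠ 1 := by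
  rintro rfl
  exact zz.2.1 (H.inj (by rw [map_one]; exact isConj_one_left.1 h))

theorem comm_cj {a b : G} (g : G) (h : a * (g * b * g⁻¹) = g * b * g⁻¹ * a) :
    g⁻¹ * a * g * b = b * (g⁻¹ * a * g) := by
  calc _ = g⁻¹ * (a * (g * b * g⁻¹)) * g := by group
    _ = _ := by rw [h]; group

theorem f4 : z = x13 * x35 * x13 * x35 ∧ (∀ k < 6, rp k ∈ W0) ∧ rp 6 ∈ R1 ∧ rp 7 ∈ R2 ∧
    (∀ k < 8, k = 1 ∨ k = 2 ∨ k = 6 ∨ k = 7 → rp k * z ∈ T0 ∧ cl (rp k * z) = k ∧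
      rp k * z * (rp k * z) = 1) ∧
    (∀ k < 8, k = 6 ∨ k = 7 → rp k * t ∈ T0 ∧ cl (rp k * t) = k ∧ rp k * t * (rp k * t) = 1 ∧
      rp k * (rp k * t) = rp k * t * rp k ∧ rp k ≠ rp k * t ∧ rp k * (rp k * t) = t) ∧
    x24 * x24 = 1 ∧ x24 ∉ E1 ∧ x24 ∉ E2 ∧ x12 ∈ E1 ∧ x45 ∈ E2 ∧
    (x14 = x24 * x12 * x24 * x12 ∧ x14 ≠ 1 ∧ x24 * x14 = x14 * x24 ∧ x14 ∈ E1 ∧ z ∈ E1) ∧
    (x25 = x24 * x45 * x24 * x45 ∧ x25 ≠ 1 ∧ x24 * x25 = x25 * x24 ∧ x25 ∈ E2 ∧ z ∈ E2) := by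
  decide +kernel

variable [Finite G]

theorem Hs.cj_z (H : Hs ι) {b : HC} (hb : b ∈ W0) (h : IsConj (ι z) (ι b)) :
    ∃ n, n ∈ 𝐍(R1.map ι) ∧ n ∈ 𝐍(R2.map ι) ∧ ∃ a ∈ R1, ∃ c ∈ R2, n * ι x13 * n⁻¹ = ι a ∧
      n * ι x35 * n⁻¹ = ι c ∧ a * c * a * c = b := by
  obtain ⟨n, h1, h2, h3⟩ := H.fusW zz.2.2.1 hb h
  obtain ⟨a, ha, e1⟩ := conj_mem_of_mem_normalizer h1 (mem_map_of_mem ι zz.2.2.2.2.1)
  obtain ⟨c, hc, e2⟩ := conj_mem_of_mem_normalizer h2 (mem_map_of_mem ι zz.2.2.2.2.2.2.1)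
  refine ⟨n, h1, h2, a, ha, c, hc, e1.symm, e2.symm, H.inj ?_⟩
  rw [← h3, f4.1]
  simp only [map_mul, e1, e2, conj_mul]

theorem Hs.nt (H : Hs ι) : ¬ IsConj (ι z) (ι t) := fun h => by
  obtain ⟨-, -, -, a, ha, c, hc, -, -, e⟩ := H.cj_z zz.2.2.2.1 h
  exact (cm12 a ha c hc).1 e

theorem Hs.nv (H : Hs ι) : ¬ IsConj (ι z) (ι (rp 5)) := fun h => by
  obtain ⟨-, -, -, a, ha, c, hc, -, -, e⟩ := H.cj_z (f4.2.1 5 (by decide)) h
  exact (cm12 a ha c hc).2.1 e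

theorem Hs.Dcls (H : Hs ι) {h : HC} (hD : IsConj (ι z) (ι h)) : ∃ g : HC, ∃ k < 8,
    g * rp k * g⁻¹ = h ∧ IsConj (ι z) (ι (rp k)) ∧ k ≠ 3 ∧ k ≠ 5 := by
  obtain ⟨g, k, hk, e⟩ := cls_all (y := h) (H.inj (by rw [map_mul, sq_of_D hD, map_one]))
  have h1 : IsConj (ι z) (ι (rp k)) := hD.trans (isConj_map g e).symm
  refine ⟨g, k, ?_, e, h1, ?_, ?_⟩
  · by_contra h2
    obtain rfl : k = 8 := by omega
    exact H.ne_of_D h1 (by rw [rp_eq.2.2.2.2.2, map_one])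
  · rintro rfl; exact H.nt (rp_eq.2.2.2.1 ▸ h1)
  · rintro rfl; exact H.nv h1

theorem Hs.Dmul (H : Hs ι) (hv : ¬ IsConj (ι z) (ι (rp 4))) {a b : G} (ha : IsConj (ι z) a)
    (hb : IsConj (ι z) b) (hc : a * b = b * a) (hn : a ≠ b) : IsConj (ι z) (a * b) := by
  obtain ⟨s, rfl⟩ := isConj_iff.1 hb
  obtain ⟨h, e⟩ := H.cen _ (comm_cj s hc)
  obtain ⟨g, k, hk, rfl, h1, h2, h3⟩ := H.Dcls (h := h) (e ▸ ha.trans (isConj_cj' s a))
  have e1 : a = s * ι (g * rp k * g⁻¹) * s⁻¹ := by rw [e]; group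
  have h4 : k ≠ 0 := by
    rintro rfl
    rw [rp_eq.1, zc g, mul_inv_cancel_right] at e1
    exact hn e1
  have h5 : k ≠ 4 := by rintro rfl; exact hv h1
  obtain ⟨h6, h7, h8⟩ := f4.2.2.2.2.1 k hk (by omega)
  have h9 := isConj_cl (ι := ι) h6 h8
  rw [h7] at h9
  rw [e1, conj_mul, ← map_mul]
  refine ((h1.trans h9).trans (isConj_map g ?_)).trans (isConj_cj s _)
  rw [mul_assoc (g * rp k), zc g⁻¹]; group

theorem Hs.n67 (H : Hs ι) (hv : ¬ IsConj (ι z) (ι (rp 4))) {k : ℕ} (hk : k = 6 ∨ k = 7) :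
    ¬ IsConj (ι z) (ι (rp k)) := fun h => by
  obtain ⟨h1, h2, h3, h4, h5, h6⟩ := f4.2.2.2.2.2.1 k (by omega) hk
  have h7 := isConj_cl (ι := ι) h1 h3
  rw [h2] at h7
  have := H.Dmul hv h (h.trans h7) (by rw [← map_mul, h4, map_mul]) fun e => h5 (H.inj e)
  rw [← map_mul, h6] at this
  exact H.nt this

theorem Hs.noZ [IsSimpleGroup G] (H : Hs ι) (hD : ∀ h, IsConj (ι z) (ι h) → h = z) : False := by
  have h2 : ι z * ι z = 1 := sq_of_D (IsConj.refl _)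
  obtain ⟨N, hN, ho, h⟩ := H3.zstar_commute h2 fun g hc => by
    obtain ⟨y, e⟩ := H.cen _ hc.symm
    rw [← e, hD y (e ▸ isConj_cj g _)]
  rcases hN.eq_bot_or_eq_top with rfl | rfl
  · have h3 : ∀ g, ∃ y, ι y = g := fun g => H.cen g (by
      have := h g
      rw [mem_bot, mul_inv_eq_one, mul_inv_eq_iff_eq_mul] at this
      exact this.symm)
    have h4 : (zpowers (ι z)).Normal := ⟨fun a ha g => by
      obtain ⟨y, rfl⟩ := h3 g
      obtain ⟨n, rfl⟩ := mem_zpowers_iff.1 ha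
      rw [((show Commute (ι y) (ι z) from zc' y).zpow_right n).eq, mul_inv_cancel_right]
      exact ha⟩
    rcases h4.eq_bot_or_eq_top with e | e
    · exact H.ne_of_D (IsConj.refl _) (zpowers_eq_bot.1 e)
    · have h5 : ∀ a b : G, a * b = b * a := fun a b => by
        obtain ⟨n, rfl⟩ := mem_zpowers_iff.1 (e ▸ mem_top a : a ∈ zpowers (ι z))
        obtain ⟨m, rfl⟩ := mem_zpowers_iff.1 (e ▸ mem_top b : b ∈ zpowers (ι z))
        exact zpow_mul_comm _ _ _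
      exact (by decide +kernel : x13 * x35 ≠ x35 * x13) (H.comm (h5 _ _))
  · exact BS.not_odd_of_ord2 (BS.ord2 h2 (H.ne_of_D (IsConj.refl _))) (mem_top _) ho

theorem Hs.noE [IsSimpleGroup G] (H : Hs ι) {E : Subgroup HC} {e0 e1 : HC}
    (hD : ∀ h, IsConj (ι z) (ι h) ↔ h ∈ E ∧ h ≠ 1)
    (hE : ∀ y ∈ E, y * y = 1 ∧ x24 * y * x24 * y ≠ z) (h1 : e1 ∈ E) (hu : x24 ∉ E)
    (h0 : e0 = x24 * e1 * x24 * e1 ∧ e0 ≠ 1 ∧ x24 * e0 = e0 * x24 ∧ e0 ∈ E ∧ z ∈ E) : False := by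
  have ab : ∀ a ∈ E, ∀ b ∈ E, a * b = b * a := fun a ha b hb => by
    rw [← inv_eq_of_mul_eq_one_right (hE _ (mul_mem ha hb)).1, mul_inv_rev,
      inv_eq_of_mul_eq_one_right (hE _ ha).1, inv_eq_of_mul_eq_one_right (hE _ hb).1]
  have ab' : ∀ a ∈ E.map ι, ∀ b ∈ E.map ι, a * b = b * a := by
    rintro _ ⟨a, ha, rfl⟩ _ ⟨b, hb, rfl⟩; rw [← map_mul, ab a ha b hb, map_mul]
  have zE : ι z ∈ E.map ι := mem_map_of_mem ι h0.2.2.2.2
  have DE : ∀ d ∈ E.map ι, d ≠ 1 → IsConj (ι z) d := by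
    rintro _ ⟨d, hd, rfl⟩ h; exact (hD d).2 ⟨hd, fun e => h (by rw [e, map_one])⟩
  have DC0 : ∀ y, y * ι z = ι z * y → IsConj (ι z) y → y ∈ E.map ι := fun y h2 h3 => by
    obtain ⟨h, rfl⟩ := H.cen y h2
    exact mem_map_of_mem ι ((hD h).1 h3).1
  have K0 : ∀ g, g * ι z * g⁻¹ ∈ E.map ι → g ∈ 𝐍(E.map ι) := fun g hg => by
    rw [← inv_mem_iff]
    refine mem_normalizer_of_conj_mem fun y hy => ?_
    rw [inv_inv]
    by_cases e : y = 1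
    · simp [e]
    · exact DC0 _ (comm_cj g (ab' _ hy _ hg)) ((DE y hy e).trans (isConj_cj' g y))
  have C : ∀ d ∈ E.map ι, d ≠ 1 → ∀ c, c * d = d * c → c ∈ 𝐍(E.map ι) := fun d hd h2 c hc => by
    obtain ⟨g, rfl⟩ := isConj_iff.1 (DE d hd h2)
    have h3 := K0 (c * g) (by
      rwa [show c * g * ι z * (c * g)⁻¹ = c * (g * ι z * g⁻¹) * c⁻¹ by group, hc, mul_inv_cancel_right])
    simpa using mul_mem h3 (inv_mem (K0 g hd))
  have DC : ∀ d ∈ E.map ι, d ≠ 1 → ∀ y, y * d = d * y → IsConj (ι z) y → y ∈ E.map ι :=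
    fun d hd h2 y hc hy => by
    obtain ⟨g, rfl⟩ := isConj_iff.1 (DE d hd h2)
    have := conj_mem_of_mem_normalizer (K0 g hd) (DC0 _ (comm_cj g hc) (hy.trans (isConj_cj' g y)))
    simpa [mul_assoc] using this
  have fx : ∀ y ∈ 𝐍(E.map ι), y * y = 1 → ∃ d ∈ E.map ι, d ≠ 1 ∧ y * d = d * y := fun y hy h2 => by
    have h3 := conj_mem_of_mem_normalizer hy zE
    rw [inv_eq_of_mul_eq_one_right h2] at h3
    by_cases e : ι z * (y * ι z * y) = 1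
    · refine ⟨_, zE, H.ne_of_D (IsConj.refl _), ?_⟩
      have h4 := eq_inv_of_mul_eq_one_right e
      rw [inv_eq_of_mul_eq_one_right (sq_of_D (IsConj.refl _))] at h4
      calc _ = y * ι z * (y * y) := by rw [h2, mul_one]
        _ = _ := by rw [← mul_assoc, h4]
    · refine ⟨_, mul_mem zE h3, e, ?_⟩
      calc _ = y * ι z * y * ι z * y := by group
        _ = ι z * (y * ι z * y) * y := by rw [ab' _ h3 _ zE]
  have K1 : ∀ y ∈ 𝐍(E.map ι), IsConj (ι z) y → y ∈ E.map ι := fun y hy h2 => by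
    obtain ⟨d, h3, h4, h5⟩ := fx y hy (sq_of_D h2)
    exact DC d h3 h4 y h5 h2
  have od : ∀ e ∈ E.map ι, e ≠ 1 → ∀ d, IsConj (ι z) d → d ∉ 𝐍(E.map ι) → Odd (orderOf (e * d)) :=
    fun e he h2 d hd h3 => by
    by_contra h4
    obtain ⟨w, -, a2, a3, a4, a5⟩ := dih (sq_of_D (DE e he h2)) (sq_of_D hd) h4
    have h5 := DC e he h2 (e * w) (by rw [mul_assoc, a3]) (a5.elim (fun h => (DE e he h2).trans h.1) hd.trans)
    exact h3 (C w (by simpa using mul_mem (inv_mem he) h5) a2 d a4.symm)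
  have fix1 : ∀ f ∈ E, f * x24 = x24 * f → ∀ g, g⁻¹ * ι (x24 * f) * g ∈ 𝐍(E.map ι) →
      g ∈ 𝐍(E.map ι) := fun f hf h2 g hg => by
    by_contra h3
    have y2 : x24 * f * (x24 * f) = 1 := by
      rw [mul_assoc, ← mul_assoc f, h2, mul_assoc, (hE f hf).1, mul_one, f4.2.2.2.2.2.2.1]
    obtain ⟨d, a1, a2, a3⟩ := fx _ hg (by
      rw [show ∀ y : G, g⁻¹ * y * g * (g⁻¹ * y * g) = g⁻¹ * (y * y) * g from fun y => by group,
        ← map_mul, y2]; simp)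
    obtain ⟨s, rfl⟩ := isConj_iff.1 (DE d a1 a2)
    have a4 : IsConj (ι z) (g * s * ι z * (g * s)⁻¹) := isConj_cj _ _
    have a5 : g * s * ι z * (g * s)⁻¹ ∉ 𝐍(E.map ι) := fun h =>
      h3 (by simpa using mul_mem (K0 _ (K1 _ h a4)) (inv_mem (K0 s a1)))
    have a6 : Commute (g * s * ι z * (g * s)⁻¹) (ι (x24 * f)) := by
      have := comm_cj g⁻¹ (a := s * ι z * s⁻¹) (b := ι (x24 * f)) (by rw [inv_inv]; exact a3.symm)
      change _ = _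
      rw [inv_inv] at this
      convert this using 1 <;> group
    have e0E := mem_map_of_mem ι h0.2.2.2.1
    have e01 : ι e0 ≠ 1 := fun e => h0.2.1 (H.inj (by rw [e, map_one]))
    obtain ⟨n, b1⟩ := H3.exists_zpow_conj_of_odd (sq_of_D (IsConj.refl _)) (sq_of_D a4)
      (od _ zE (H.ne_of_D (IsConj.refl _)) _ a4 a5)
    obtain ⟨m, b2⟩ := H3.exists_zpow_conj_of_odd (sq_of_D (DE _ e0E e01)) (sq_of_D a4)
      (od _ e0E e01 _ a4 a5)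
    have b3 : Commute (ι e0) (ι (x24 * f)) := by
      change _ = _
      rw [← map_mul, ← map_mul, mul_assoc, ab f hf e0 h0.2.2.2.1, ← mul_assoc, ← mul_assoc, h0.2.2.1]
    have b4 := (((b3.mul_left a6).zpow_left m).inv_left.mul_left
      (((show Commute (ι z) (ι (x24 * f)) from (zc' _).symm).mul_left a6).zpow_left n)).eq
    generalize (ι z * (g * s * ι z * (g * s)⁻¹)) ^ n = p at b1 b4
    generalize (ι e0 * (g * s * ι z * (g * s)⁻¹)) ^ m = q at b2 b4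
    have b5 : q⁻¹ * p * ι z * (q⁻¹ * p)⁻¹ = ι e0 := by
      calc _ = q⁻¹ * (p * ι z * p⁻¹) * q := by group
        _ = _ := by rw [b1, ← b2]; group
    generalize q⁻¹ * p = c at b4 b5
    obtain ⟨e', b6, b7⟩ := conj_mem_of_mem_normalizer' (K0 c (b5 ▸ e0E)) (mem_map_of_mem ι h1)
    have b8 : ∀ y ∈ E, x24 * f * y * (x24 * f) * y = x24 * y * x24 * y := fun y hy => by
      calc _ = x24 * (f * y) * (x24 * f) * y := by group
        _ = x24 * y * (f * x24) * f * y := by rw [ab f hf y hy]; group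
        _ = x24 * y * x24 * (f * f) * y := by rw [h2]; group
        _ = _ := by rw [(hE f hf).1, mul_one]
    refine (hE e' b6).2 (H.inj ?_)
    have b9 : ι (x24 * f) = c⁻¹ * ι (x24 * f) * c := by rw [mul_assoc, ← b4]; group
    rw [← b8 e' b6, map_mul, map_mul, map_mul, b7, b9]
    calc _ = c⁻¹ * (ι (x24 * f) * ι e1 * ι (x24 * f) * ι e1) * c := by group
      _ = _ := by rw [← map_mul, ← map_mul, ← map_mul, b8 e1 h1, ← h0.1, ← b5]; group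
  have fix0 : ∀ g, g⁻¹ * ι x24 * g ∈ 𝐍(E.map ι) → g ∈ 𝐍(E.map ι) := fun g hg =>
    fix1 1 (one_mem E) (by simp) g (by rwa [mul_one])
  have nu : ¬ IsConj (ι z) (ι x24) := fun h => hu ((hD _).1 h).1
  have u2 : ι x24 * ι x24 = 1 := by rw [← map_mul, f4.2.2.2.2.2.2.1, map_one]
  have z1 := H.ne_of_D (IsConj.refl _)
  have all : ∀ g, g ∈ 𝐍(E.map ι) := fun g => by
    have hd := isConj_cj g (ι z)
    obtain ⟨w, a1, a2, a3, a4, a5 | a5⟩ := dih u2 (sq_of_D hd) fun h =>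
      nu (hd.trans (H3.isConj_of_odd u2 (sq_of_D hd) h).symm)
    · have b1 := DC0 _ (comm_cj g (a := g * ι z * g⁻¹ * w) (by rw [mul_assoc _ w, a4]))
        ((hd.trans a5.2).trans (isConj_cj' g _))
      have b2 : g⁻¹ * w * g ∈ E.map ι := by
        have := mul_mem (inv_mem zE) b1
        convert this using 1; group
      refine fix0 g (C _ b2 (fun e => a2 (by simpa [mul_eq_one_iff_eq_inv] using e)) _ ?_)
      calc _ = g⁻¹ * (ι x24 * w) * g := by group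
        _ = _ := by rw [← a3]; group
    · obtain ⟨s, b1⟩ := isConj_iff.1 (hd.trans a5)
      have b2 := fix0 s (C _ zE z1 _ (comm_cj s (by rw [b1, mul_assoc, a3])))
      obtain ⟨f, b3, b4⟩ := b1 ▸ conj_mem_of_mem_normalizer b2 zE
      refine fix1 f b3 (H.comm (by rw [b4, mul_assoc, a3])) g ?_
      rw [map_mul, b4, ← mul_assoc (ι x24), u2, one_mul]
      exact C _ zE z1 _ (comm_cj g a4)
  have hN : (E.map ι).Normal := ⟨fun a ha g => conj_mem_of_mem_normalizer (all g) ha⟩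
  rcases hN.eq_bot_or_eq_top with e | e
  · exact z1 (mem_bot.1 (e ▸ zE))
  · exact hu (H.mem_map.1 (e ▸ mem_top _))

theorem Hs.noFus [IsSimpleGroup G] (H : Hs ι) (hv : ¬ IsConj (ι z) (ι (rp 4)))
    (h : ¬ IsConj (ι z) (ι (rp 1)) ∨ ¬ IsConj (ι z) (ι (rp 2))) : False := by
  have key : ∀ y, IsConj (ι z) (ι y) → ∃ g : HC, ∃ k, (k = 0 ∨ k = 1 ∨ k = 2) ∧ g * rp k * g⁻¹ = y ∧
      IsConj (ι z) (ι (rp k)) := fun y hy => by
    obtain ⟨g, k, hk, e, h1, h2, h3⟩ := H.Dcls hy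
    have h4 : k ≠ 4 := by rintro rfl; exact hv h1
    have h5 : ¬ (k = 6 ∨ k = 7) := fun h => H.n67 hv h h1
    exact ⟨g, k, by omega, e, h1⟩
  have ne1 : ∀ y, IsConj (ι z) (ι y) → y ≠ 1 := fun y hy e => H.ne_of_D hy (by rw [e, map_one])
  by_cases h1 : IsConj (ι z) (ι (rp 1))
  · refine H.noE (fun y => ⟨fun hy => ⟨?_, ne1 y hy⟩, fun hy => ?_⟩)
      (fun y hy => ⟨(clE1 y hy).1, (clE1 y hy).2.2.2.1⟩) f4.2.2.2.2.2.2.2.2.2.1 f4.2.2.2.2.2.2.2.1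
      f4.2.2.2.2.2.2.2.2.2.2.2.1
    · obtain ⟨g, k, rfl | rfl | rfl, rfl, h2⟩ := key y hy
      · exact conj_mem_of_mem_normalizer (all_norm nE1 g) (rp_eq.1 ▸ f4.2.2.2.2.2.2.2.2.2.2.2.1.2.2.2.2)
      · exact conj_mem_of_mem_normalizer (all_norm nE1 g) (rp_eq.2.1 ▸ f4.2.2.2.2.2.2.2.2.2.2.2.1.2.2.2.1)
      · exact absurd h2 (h.resolve_left (not_not.2 h1))
    · have h2 := isConj_cl (ι := ι) (E1T hy.1) (clE1 y hy.1).1
      rcases (clE1 y hy.1).2.2.1 with e | e | e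
      · rwa [e, rp_eq.1] at h2
      · rw [e] at h2; exact h1.trans h2
      · exact absurd e hy.2
  by_cases h2 : IsConj (ι z) (ι (rp 2))
  · refine H.noE (fun y => ⟨fun hy => ⟨?_, ne1 y hy⟩, fun hy => ?_⟩)
      (fun y hy => ⟨(clE2 y hy).1, (clE2 y hy).2.2.2.1⟩) f4.2.2.2.2.2.2.2.2.2.2.1 f4.2.2.2.2.2.2.2.2.1
      f4.2.2.2.2.2.2.2.2.2.2.2.2
    · obtain ⟨g, k, rfl | rfl | rfl, rfl, h3⟩ := key y hy
      · exact conj_mem_of_mem_normalizer (all_norm nE2 g) (rp_eq.1 ▸ f4.2.2.2.2.2.2.2.2.2.2.2.2.2.2.2.2)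
      · exact absurd h3 h1
      · exact conj_mem_of_mem_normalizer (all_norm nE2 g) (rp_eq.2.2.1 ▸ f4.2.2.2.2.2.2.2.2.2.2.2.2.2.2.2.1)
    · have h3 := isConj_cl (ι := ι) (E2T hy.1) (clE2 y hy.1).1
      rcases (clE2 y hy.1).2.2.1 with e | e | e
      · rwa [e, rp_eq.1] at h3
      · rw [e] at h3; exact h2.trans h3
      · exact absurd e hy.2
  refine H.noZ fun y hy => ?_
  obtain ⟨g, k, rfl | rfl | rfl, rfl, h3⟩ := key y hy
  · rw [rp_eq.1, zc g, mul_inv_cancel_right]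
  · exact absurd h3 h1
  · exact absurd h3 h2

/-- both `R₁/W` and `R₂/W` are moved -/
theorem Hs.p12 [IsSimpleGroup G] (H : Hs ι) :
    (∃ n, n ∈ 𝐍(R1.map ι) ∧ n ∈ 𝐍(R2.map ι) ∧ ∃ a ∈ R1, n * ι x13 * n⁻¹ = ι a ∧ x13 * a ∉ W0) ∧
    ∃ n, n ∈ 𝐍(R1.map ι) ∧ n ∈ 𝐍(R2.map ι) ∧ ∃ a ∈ R2, n * ι x35 * n⁻¹ = ι a ∧ x35 * a ∉ W0 := by
  constructor
  · by_contra h
    have key : ∀ k, k = 2 ∨ k = 4 → ¬ IsConj (ι z) (ι (rp k)) := fun k hk h1 => by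
      obtain ⟨n, a1, a2, a, ha, c, hc, e1, -, e⟩ := H.cj_z (f4.2.1 k (by omega)) h1
      have := (cm12 a ha c hc).2.2.1 (by_contra fun h2 => h ⟨n, a1, a2, a, ha, e1, h2⟩)
      rcases hk with rfl | rfl
      exacts [this.1 e, this.2 e]
    exact H.noFus (key 4 (Or.inr rfl)) (Or.inr (key 2 (Or.inl rfl)))
  · by_contra h
    have key : ∀ k, k = 1 ∨ k = 4 → ¬ IsConj (ι z) (ι (rp k)) := fun k hk h1 => by
      obtain ⟨n, a1, a2, a, ha, c, hc, -, e1, e⟩ := H.cj_z (f4.2.1 k (by omega)) h1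
      have := (cm12 a ha c hc).2.2.2 (by_contra fun h2 => h ⟨n, a1, a2, c, hc, e1, h2⟩)
      rcases hk with rfl | rfl
      exacts [this.1 e, this.2 e]
    exact H.noFus (key 4 (Or.inr rfl)) (Or.inl (key 1 (Or.inl rfl)))

end Cfsg.Agent.H1.He
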