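import Cfsg.Agent.H1.He4

/-! Held's theorem: the group `N(R₁) ∩ N(R₂)` and the configuration of generators. -/

set_option autoImplicit false

namespace Cfsg.Agent.H1.He

open Subgroup Cfsg.Agent.FT Cfsg.Agent.H4 Equiv

noncomputable def c1 : Fin 3 → HC := ![x13, x23, x13 * x23]
noncomputable def c2 : Fin 3 → HC := ![x35, x34, x35 * x34]
noncomputable def cm (i k : Fin 3) : HC := c1 i * c2 k * c1 i * c2 k
def ρ : Perm (Fin 3) := finRotate 3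

structure Side (R S : Subgroup HC) (c : Fin 3 → HC) : Prop where
  isR : IsR R
  mem : ∀ i, c i ∈ R ∧ c i ∉ W0 ∧ ∀ j, c i * c j ∈ S → i = j
  cos : ∀ a ∈ R, a ∈ W0 ∨ ∃ i, c i * a ∈ W0
  dec : ∀ a ∈ J0, a ∈ S ∨ ∃ i, c i * a ∈ S
  mul : c 2 = c 0 * c 1
  le : W0 ≤ S

theorem side1 : Side R1 R2 c1 := ⟨Or.inl rfl, by decide +kernel, forall_pat (by decide +kernel),
  forall_pat (by decide +kernel), rfl, WR2⟩
theorem side2 : Side R2 R1 c2 := ⟨Or.inr rfl, by decide +kernel, forall_pat (by decide +kernel),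
  forall_pat (by decide +kernel), rfl, WR1⟩

theorem fW : ∀ y ∈ W0, y = 1 ∨ ∃ i k i' k', y = cm i k * cm i' k' ∧
    cm (ρ i) k * cm (ρ i') k' ≠ y ∧ cm i (ρ k) * cm i' (ρ k') ≠ y := forall_pat (by decide +kernel)

theorem f5 : z = cm 0 0 ∧ t = cm 0 1 * cm 1 0 ∧
    (∀ i, c1 (swap 1 2 i) * (x12 * c1 i * x12) ∈ W0 ∧ c2 i * (x12 * c2 i * x12) ∈ W0 ∧
      c1 i * (x45 * c1 i * x45) ∈ W0 ∧ c2 (swap 1 2 i) * (x45 * c2 i * x45) ∈ W0) := by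
  decide +kernel

theorem cmW {a b p q : HC} (ha : a ∈ R1) (hb : b ∈ R2) (hp : p ∈ R1) (hq : q ∈ R2)
    (h1 : p * a ∈ W0) (h2 : q * b ∈ W0) : a * b * a * b = p * q * p * q := by
  have e1 : a = p * (p * a) := by rw [← mul_assoc, (ab1 p hp).1, one_mul]
  have e2 : b = q * (q * b) := by rw [← mul_assoc, (ab2 q hq).1, one_mul]
  generalize p * a = v at h1 e1
  generalize q * b = w at h2 e2
  have c1 : ∀ y ∈ W0, ∀ r, p * (y * r) = y * (p * r) := fun y hy r => by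
    rw [← mul_assoc, mem_cent1_iff.1 (cJW y hy (R1J hp)), mul_assoc]
  have c2 : ∀ y ∈ W0, ∀ r, q * (y * r) = y * (q * r) := fun y hy r => by
    rw [← mul_assoc, mem_cent1_iff.1 (cJW y hy (R2J hq)), mul_assoc]
  have c3 : ∀ r, w * (v * r) = v * (w * r) := fun r => by
    rw [← mul_assoc, (ab1 w (WR1 h2)).2 v (WR1 h1), mul_assoc]
  have c4 : ∀ y ∈ W0, ∀ r, y * (y * r) = r := fun y hy r => by
    rw [← mul_assoc, (ab1 y (WR1 hy)).1, one_mul]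
  rw [e1, e2, ← mul_one (p * v * (q * w) * (p * v) * (q * w)), ← mul_one (p * q * p * q)]
  simp only [mul_assoc, c1 v h1, c1 w h2, c2 v h1, c2 w h2, c3, c4 v h1, c4 w h2]

/-- the relations of the configuration -/
structure Cfg {G : Type*} [Group G] (k1 a b k4 s1 s4 : G) : Prop where
  q1 : s1 * s1 = 1
  q4 : s4 * s4 = 1
  r1 : k1 * s1 * (k1 * s1) * (k1 * s1) = 1
  r4 : k4 * s4 * (k4 * s4) * (k4 * s4) = 1
  c14 : s1 * s4 = s4 * s1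
  c1k : s1 * k4 = k4 * s1
  c4k : s4 * k1 = k1 * s4
  c1a : s1 * a = a * s1
  c1b : s1 * b = b * s1
  c4a : s4 * a = a * s4
  c4b : s4 * b = b * s4
  m1 : s1 * (a * k1 * a * k1) = k1 * a * k1 * s1
  m4 : s4 * (b * k4 * b * k4) = k4 * b * k4 * s4

variable {G : Type*} [Group G] {ι : HC →* G}

theorem Cfg.cj {k1 a b k4 s1 s4 : G} (h : Cfg k1 a b k4 s1 s4) (g : G) :
    Cfg (g * k1 * g⁻¹) (g * a * g⁻¹) (g * b * g⁻¹) (g * k4 * g⁻¹) (g * s1 * g⁻¹) (g * s4 * g⁻¹) := by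
  obtain ⟨h1, h2, h3, h4, h5, h6, h7, h8, h9, h10, h11, h12, h13⟩ := h
  constructor <;> simp only [conj_mul, *, mul_one, mul_inv_cancel]

/-- the action on the cosets of `W` -/
def Rel (ι : HC →* G) (c : Fin 3 → HC) (p : G) (i j : Fin 3) : Prop :=
  ∃ a, p * ι (c i) * p⁻¹ = ι a ∧ c j * a ∈ W0

theorem Hs.normW (H : Hs ι) {p : G} (h1 : p ∈ 𝐍(R1.map ι)) (h2 : p ∈ 𝐍(R2.map ι)) {w : HC}
    (hw : w ∈ W0) : ∃ v ∈ W0, p * ι w * p⁻¹ = ι v := by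
  obtain ⟨v, hv, e⟩ := conj_mem_of_mem_normalizer h1 (mem_map_of_mem ι (WR1 hw))
  exact ⟨v, memW v hv (H.mem_map.1 (e ▸ conj_mem_of_mem_normalizer h2 (mem_map_of_mem ι (WR2 hw)))),
    e.symm⟩

/-- the common normalizer -/
abbrev PP (ι : HC →* G) : Subgroup G := 𝐍(R1.map ι) ⊓ 𝐍(R2.map ι)

theorem IsR.le {R : Subgroup HC} (h : IsR R) : PP ι ≤ 𝐍(R.map ι) := by
  rcases h with rfl | rfl; exacts [inf_le_left, inf_le_right]

variable {R S : Subgroup HC} {c : Fin 3 → HC}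

theorem Side.uniq (h : Side R S c) {a : HC} {i j : Fin 3} (h1 : c i * a ∈ W0) (h2 : c j * a ∈ W0) :
    i = j := by
  refine (h.mem i).2.2 j (h.le ?_)
  have := mul_mem h1 (inv_mem h2)
  rwa [mul_inv_rev, mul_assoc, mul_inv_cancel_left,
    inv_eq_of_mul_eq_one_right (h.isR.ab _ (h.mem j).1).1] at this

theorem Hs.cosW (H : Hs ι) (h : Side R S c) {p : G} (hp : p ∈ PP ι) {i j : Fin 3} (h1 : Rel ι c p i j)
    {y : HC} (hy : c i * y ∈ W0) : ∃ y', p * ι y * p⁻¹ = ι y' ∧ c j * y' ∈ W0 := by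
  obtain ⟨a, e, h2⟩ := h1
  obtain ⟨v, h3, e2⟩ := H.normW hp.1 hp.2 hy
  refine ⟨a * v, ?_, by rw [← mul_assoc]; exact mul_mem h2 h3⟩
  rw [map_mul, ← e, ← e2, conj_mul, ← map_mul, ← mul_assoc, (h.isR.ab _ (h.mem i).1).1, one_mul]

theorem Hs.psi (H : Hs ι) (h : Side R S c) : ∃ ψ : PP ι →* Perm (Fin 3), ∀ p i j,
    ψ p i = j ↔ Rel ι c p i j := by
  have ex : ∀ (p : PP ι) i, ∃ j, Rel ι c p i j := fun p i => by
    obtain ⟨a, ha, e⟩ := conj_mem_of_mem_normalizer (h.isR.le p.2) (mem_map_of_mem ι (h.mem i).1)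
    rcases h.cos a ha with h1 | ⟨j, h1⟩
    · obtain ⟨v, h2, e2⟩ := H.normW (p⁻¹).2.1 (p⁻¹).2.2 h1
      rw [e] at e2
      exact absurd (H.inj (by rw [← e2]; simp [mul_assoc]) : c i = v) fun e3 => (h.mem i).2.1 (e3 ▸ h2)
    · exact ⟨j, a, e.symm, h1⟩
  have un : ∀ (p : PP ι) i j k, Rel ι c p i j → Rel ι c p i k → j = k := by
    rintro p i j k ⟨a, e1, h1⟩ ⟨b, e2, h2⟩
    exact h.uniq h1 (H.inj (e2.symm.trans e1) ▸ h2)
  choose f hf using ex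
  refine ⟨MonoidHom.toHomPerm (G := PP ι) ⟨⟨f, funext fun i => un 1 i _ _ (hf 1 i) ⟨c i, by simp, ?_⟩⟩,
    fun p q => funext fun i => un (p * q) i _ _ (hf _ i) ?_⟩,
    fun p i j => ⟨fun e => e ▸ hf p i, un p i _ _ (hf p i)⟩⟩
  · change c i * c i ∈ W0
    rw [(h.isR.ab _ (h.mem i).1).1]; exact one_mem _
  · obtain ⟨a, e1, h1⟩ := hf q i
    obtain ⟨b, e2, h2⟩ := H.cosW h p.2 (hf p (f q i)) h1
    exact ⟨b, by rw [← e2, ← e1]; simp [mul_assoc], h2⟩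

theorem Hs.cj_cm (H : Hs ι) {p : G} (hp : p ∈ PP ι) {i j k l : Fin 3} (h1 : Rel ι c1 p i j)
    (h2 : Rel ι c2 p k l) : p * ι (cm i k) * p⁻¹ = ι (cm j l) := by
  obtain ⟨a, e1, h1⟩ := h1
  obtain ⟨b, e2, h2⟩ := h2
  have ha := H.mem_map.1 (e1 ▸ conj_mem_of_mem_normalizer hp.1 (mem_map_of_mem ι (side1.mem i).1))
  have hb := H.mem_map.1 (e2 ▸ conj_mem_of_mem_normalizer hp.2 (mem_map_of_mem ι (side2.mem k).1))
  rw [cm, cm, ← cmW ha hb (side1.mem j).1 (side2.mem l).1 h1 h2]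
  simp only [map_mul, ← e1, ← e2, conj_mul]

theorem Hs.ker (H : Hs ι) {p : G} (hp : p ∈ PP ι) (h1 : ∀ i, Rel ι c1 p i i) (h2 : ∀ i, Rel ι c2 p i i) :
    p ∈ J0.map ι := by
  have h3 : ∀ i k, p * ι (cm i k) = ι (cm i k) * p := fun i k =>
    mul_inv_eq_iff_eq_mul.1 (H.cj_cm hp (h1 i) (h2 k))
  obtain ⟨y, rfl⟩ := H.cen p (f5.1 ▸ h3 0 0)
  have h4 : y ∈ T0 := cent_t (H.comm (by rw [f5.2.1, map_mul, ← mul_assoc, h3, mul_assoc, h3, mul_assoc]))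
  obtain ⟨a, e1, h5⟩ := h1 1
  obtain ⟨b, e2, h6⟩ := h2 1
  rw [← map_inv, ← map_mul, ← map_mul, inv_T h4] at e1 e2
  exact mem_map_of_mem ι (chJ y h4 (H.inj e1 ▸ h5) (H.inj e2 ▸ h6))

theorem Hs.memS (H : Hs ι) (h : Side R S c) {d : G} (hd : d ∈ 𝐍(S.map ι))
    (h1 : ∀ i, Rel ι c d i (ρ i)) {y : HC} (hy : y ∈ J0) (hc : d * ι y = ι y * d) : y ∈ S := by
  refine (h.dec y hy).elim id fun ⟨i, h2⟩ => ?_
  obtain ⟨a, e, h3⟩ := h1 i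
  have h4 := conj_mem_of_mem_normalizer hd (mem_map_of_mem ι h2)
  rw [map_mul, ← conj_mul, e, hc, mul_inv_cancel_right, ← map_mul, H.mem_map] at h4
  have h6 : c (ρ i) * c i ∈ S := by
    rw [← inv_eq_of_mul_eq_one_right (h.isR.ab _ (h.mem i).1).1]
    have h8 : c (ρ i) * a * (a⁻¹ * (c i)⁻¹) ∈ S := by
      refine mul_mem (h.le h3) ?_
      have h9 : a ∈ R := by
        have := mul_mem (inv_mem (h.mem (ρ i)).1) (h.isR.W h3)
        rwa [inv_mul_cancel_left] at this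
      rw [inv_eq_of_mul_eq_one_right (h.isR.ab _ h9).1]
      convert mul_mem h4 (inv_mem h2) using 1; group
    convert h8 using 1; group
  exact absurd ((h.mem _).2.2 _ h6) ((by decide : ∀ i, ρ i ≠ i) i)

/-- fixed points of an element of order three in the cosets -/
theorem Hs.fixed (H : Hs ι) (h : Side R S c) {d : G} (hd : d ∈ PP ι) (h3 : d * d * d = 1)
    (h1 : ∀ i, Rel ι c d i i) (hf : ∀ w ∈ W0, d * ι w = ι w * d → w = 1) :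
    ∃ a : Fin 3 → HC, (∀ i, c i * a i ∈ W0 ∧ d * ι (a i) = ι (a i) * d) ∧ a 2 = a 0 * a 1 ∧
      (∀ i, a i * a i = 1 ∧ ∀ j, a i * a j = a j * a i) ∧
      ∀ p ∈ PP ι, p * d = d * p ∨ p * d⁻¹ = d * p → ∀ i j, Rel ι c p i j →
        p * ι (a i) * p⁻¹ = ι (a j) := by
  have mR : ∀ {i y}, c i * y ∈ W0 → y ∈ R := fun {i y} hy => by
    have := mul_mem (inv_mem (h.mem i).1) (h.isR.W hy)
    rwa [inv_mul_cancel_left] at this
  have ex : ∀ i, ∃ a, c i * a ∈ W0 ∧ d * ι a = ι a * d := fun i => by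
    obtain ⟨y, e1, a1⟩ := h1 i
    obtain ⟨y', e2, a2⟩ := H.cosW h hd (h1 i) a1
    have e3 : d * ι y' * d⁻¹ = ι (c i) := by
      rw [← e2, ← e1]
      calc _ = (d * d * d) * ι (c i) * (d * d * d)⁻¹ := by group
        _ = _ := by rw [h3]; simp
    refine ⟨c i * y * y', ?_, mul_inv_eq_iff_eq_mul.1 ?_⟩
    · rw [(h.isR.ab _ (h.mem i).1).2 _ (mul_mem (h.isR.W a1) (mR a2)), mul_assoc,
        ← (h.isR.ab _ (h.mem i).1).2 _ (mR a2)]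
      exact mul_mem a1 a2
    · rw [map_mul, map_mul, ← conj_mul, ← conj_mul, e1, e2, e3, ← map_mul, ← map_mul, ← map_mul,
        ← map_mul, ← (h.isR.ab _ (h.mem i).1).2 _ (mul_mem (mR a1) (mR a2)), mul_assoc]
  have un : ∀ {i a b}, c i * a ∈ W0 → c i * b ∈ W0 → d * ι a = ι a * d → d * ι b = ι b * d → a = b :=
    fun {i a b} a1 a2 a3 a4 => by
    refine inv_mul_eq_one.1 (hf _ (by convert mul_mem (inv_mem a1) a2 using 1; group) ?_)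
    rw [map_mul, map_inv]
    exact ((Commute.inv_right a3).mul_right a4).eq
  choose a ha using ex
  refine ⟨a, ha, un (ha 2).1 ?_ (ha 2).2 ?_, fun i => ⟨(h.isR.ab _ (mR (ha i).1)).1, fun j =>
    (h.isR.ab _ (mR (ha i).1)).2 _ (mR (ha j).1)⟩, fun p hp hc i j hr => ?_⟩
  · have := mul_mem (ha 0).1 (ha 1).1
    rwa [h.mul, mul_assoc, ← mul_assoc (c 1), (h.isR.ab _ (h.mem 1).1).2 _ (mR (ha 0).1), mul_assoc,
      ← mul_assoc]
  · rw [map_mul]; exact (Commute.mul_right (ha 0).2 (ha 1).2).eq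
  · obtain ⟨y, e, h4⟩ := H.cosW h hp hr (ha i).1
    rw [e, un h4 (ha j).1 ?_ (ha j).2]
    rw [← e]
    rcases hc with hc | hc
    · calc _ = p * (d * ι (a i)) * p⁻¹ := by rw [← mul_assoc, ← mul_assoc, ← hc]; group
        _ = _ := by rw [(ha i).2, mul_assoc (p * ι (a i)), (Commute.inv_left hc).eq]; group
    · have h5 := (Commute.inv_left (ha i).2).eq
      have h6 : d = p * d⁻¹ * p⁻¹ := by rw [hc, mul_inv_cancel_right]
      rw [h6, conj_mul, conj_mul, h5]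

theorem f3 : (∀ γ : Perm (Fin 3), γ 0 ≠ 0 → swap 1 2 * (γ * swap 1 2 * γ⁻¹) = ρ ∨
    (swap 1 2 * (γ * swap 1 2 * γ⁻¹))⁻¹ = ρ) ∧ (∀ γ : Perm (Fin 3), γ * ρ = ρ * γ ∨ γ * ρ⁻¹ = ρ * γ) ∧
    (∀ γ : Perm (Fin 3), Perm.sign γ = 1 → γ ^ 3 ^ 1 = 1) ∧ Perm.sign ρ = 1 := by decide

theorem Hs.cfg0 [Finite G] [IsSimpleGroup G] (H : Hs ι) : ∃ k1 a b k4 : HC, Tup k1 a b k4 ∧
    ∃ s1 s4, Cfg (ι k1) (ι a) (ι b) (ι k4) s1 s4 := by
  obtain ⟨ψ1, h1⟩ := H.psi side1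
  obtain ⟨ψ2, h2⟩ := H.psi side2
  have r1 : ∀ p i, Rel ι c1 (p : PP ι) i (ψ1 p i) := fun p i => (h1 p i _).1 rfl
  have r2 : ∀ p i, Rel ι c2 (p : PP ι) i (ψ2 p i) := fun p i => (h2 p i _).1 rfl
  let Ψ := ψ1.prod ψ2
  have ker : ∀ p, Ψ p = 1 → (p : G) ∈ J0.map ι := fun p hp => H.ker p.2
    (fun i => (h1 p i i).1 (by rw [show ψ1 p = 1 from congrArg Prod.fst hp]; rfl))
    (fun i => (h2 p i i).1 (by rw [show ψ2 p = 1 from congrArg Prod.snd hp]; rfl))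
  have mT : ∀ y ∈ T0, ι y ∈ PP ι := fun y hy => ⟨map_norm (T_norm nR1 hy), map_norm (T_norm nR2 hy)⟩
  let u1 : PP ι := ⟨_, mT x12 zz.2.2.2.2.2.2.2.1⟩
  let u4 : PP ι := ⟨_, mT x45 zz.2.2.2.2.2.2.2.2.2.2⟩
  have rl : ∀ {c : Fin 3 → HC} {y : HC} {i j}, y * y = 1 → c j * (y * c i * y) ∈ W0 → Rel ι c (ι y) i j :=
    fun {c y i j} h h' => ⟨_, by rw [← map_inv, inv_eq_of_mul_eq_one_right h, ← map_mul, ← map_mul], h'⟩
  have e1 : Ψ u1 = (swap 1 2, 1) := Prod.ext (Equiv.ext fun i => (h1 _ _ _).2 (rl xs.1 (f5.2.2 i).1))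
    (Equiv.ext fun i => (h2 _ _ _).2 (rl xs.1 (f5.2.2 i).2.1))
  have e4 : Ψ u4 = (1, swap 1 2) := Prod.ext
    (Equiv.ext fun i => (h1 _ _ _).2 (rl xs.2.1 (f5.2.2 i).2.2.1))
    (Equiv.ext fun i => (h2 _ _ _).2 (rl xs.2.1 (f5.2.2 i).2.2.2))
  obtain ⟨p1, a1⟩ : ∃ p, Ψ p = (ρ, 1) := by
    obtain ⟨n, b1, b2, a, -, b3, b4⟩ := H.p12.1
    have b5 : ψ1 ⟨n, b1, b2⟩ 0 ≠ 0 := fun e => by
      obtain ⟨a', b6, b7⟩ := (h1 _ _ _).1 e
      exact b4 (H.inj (b6.symm.trans b3) ▸ b7)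
    have b6 : Ψ (u1 * (⟨n, b1, b2⟩ * u1 * (⟨n, b1, b2⟩ : PP ι)⁻¹)) =
        (swap 1 2 * (ψ1 ⟨n, b1, b2⟩ * swap 1 2 * (ψ1 ⟨n, b1, b2⟩)⁻¹), 1) := by
      simp only [map_mul, map_inv, e1]; simp [Ψ]
    rcases f3.1 _ b5 with e | e
    · exact ⟨_, by rw [b6, e]⟩
    · exact ⟨_, by rw [map_inv, b6, Prod.inv_mk, e, inv_one]⟩
  obtain ⟨p4, a4⟩ : ∃ p, Ψ p = (1, ρ) := by
    obtain ⟨n, b1, b2, a, -, b3, b4⟩ := H.p12.2
    have b5 : ψ2 ⟨n, b1, b2⟩ 0 ≠ 0 := fun e => by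
      obtain ⟨a', b6, b7⟩ := (h2 _ _ _).1 e
      exact b4 (H.inj (b6.symm.trans b3) ▸ b7)
    have b6 : Ψ (u4 * (⟨n, b1, b2⟩ * u4 * (⟨n, b1, b2⟩ : PP ι)⁻¹)) =
        (1, swap 1 2 * (ψ2 ⟨n, b1, b2⟩ * swap 1 2 * (ψ2 ⟨n, b1, b2⟩)⁻¹)) := by
      simp only [map_mul, map_inv, e4]; simp [Ψ]
    rcases f3.1 _ b5 with e | e
    · exact ⟨_, by rw [b6, e]⟩
    · exact ⟨_, by rw [map_inv, b6, Prod.inv_mk, e, inv_one]⟩
  let A : Subgroup (Perm (Fin 3) × Perm (Fin 3)) := (alternatingGroup _).prod (alternatingGroup _)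
  have : Fact (Nat.Prime 3) := ⟨Nat.prime_three⟩
  obtain ⟨D, hD⟩ := exists_syl 3 (A.comap Ψ)
  have mD : (A.comap Ψ).map Ψ = D.map Ψ := (hD.map Ψ).eq_of_le
    (isPGroup_iff_mem.2 fun y hy => by
      have := map_comap_le Ψ A hy
      exact ⟨1, Prod.ext (f3.2.2.1 _ this.1) (f3.2.2.1 _ this.2)⟩) (map_mono hD.le) le_rfl
  have exD : ∀ p, Ψ p ∈ A → ∃ d ∈ D, Ψ d = Ψ p := fun p hp => mD.le (mem_map_of_mem Ψ hp)
  have exC : ∀ p, ∃ c ∈ 𝐍(D), Ψ c = Ψ p := fun p => by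
    obtain ⟨n, b1, b2⟩ := hD.frattini (H := ⊤) Subgroup.le_normalizer_of_normal (mem_top p)
    obtain ⟨d, b3, b4⟩ := exD n b1
    exact ⟨d⁻¹ * (n * p), mul_mem (inv_mem (le_normalizer b3)) b2, by simp [b4]⟩
  obtain ⟨d1, m1, b1⟩ := exD p1 (a1 ▸ ⟨f3.2.2.2, one_mem _⟩)
  obtain ⟨d4, m4, b4⟩ := exD p4 (a4 ▸ ⟨one_mem _, f3.2.2.2⟩)
  rw [a1] at b1
  rw [a4] at b4
  have g1 : ψ1 d1 = ρ := congrArg Prod.fst b1
  have g2 : ψ2 d1 = 1 := congrArg Prod.snd b1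
  have g3 : ψ1 d4 = 1 := congrArg Prod.fst b4
  have g4 : ψ2 d4 = ρ := congrArg Prod.snd b4
  have fp1 : ∀ w ∈ W0, (d1 : G) * ι w = ι w * d1 → w = 1 := fun w hw hc => by
    refine (fW w hw).elim id fun ⟨i, k, i', k', e, h3, _⟩ => absurd (H.inj ?_) h3
    rw [← mul_inv_eq_iff_eq_mul.2 hc, e, map_mul, map_mul, ← conj_mul, H.cj_cm d1.2 (r1 _ _) (r2 _ _),
      H.cj_cm d1.2 (r1 _ _) (r2 _ _), g1, g2]; rfl
  have fp4 : ∀ w ∈ W0, (d4 : G) * ι w = ι w * d4 → w = 1 := fun w hw hc => by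
    refine (fW w hw).elim id fun ⟨i, k, i', k', e, _, h3⟩ => absurd (H.inj ?_) h3
    rw [← mul_inv_eq_iff_eq_mul.2 hc, e, map_mul, map_mul, ← conj_mul, H.cj_cm d4.2 (r1 _ _) (r2 _ _),
      H.cj_cm d4.2 (r1 _ _) (r2 _ _), g3, g4]; rfl
  have in1 : ∀ c ∈ 𝐍(D), Ψ c = 1 → c = 1 := fun c hc h3 => by
    have h4 : ∀ d ∈ D, (d : G) * c = c * d := fun d hd => by
      have h5 : c * d * c⁻¹ * d⁻¹ ∈ D := mul_mem (conj_mem_of_mem_normalizer hc hd) (inv_mem hd)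
      obtain ⟨k, h6⟩ := isPGroup_iff_mem.1 hD.isPGroup _ h5
      obtain ⟨l, h7⟩ := isPGroup_iff_mem.1 ((pT ι).to_le (map_mono JT)) _
        (ker (c * d * c⁻¹ * d⁻¹) (by simp [h3]))
      have h8 : c * d * c⁻¹ * d⁻¹ = 1 := by
        have h9 := pow_gcd_eq_one.2 ⟨h6, Subtype.ext h7⟩
        rwa [(Nat.Coprime.pow k l (by decide)).gcd_eq_one, pow_one] at h9
      rw [mul_inv_eq_one, mul_inv_eq_iff_eq_mul] at h8
      exact congrArg Subtype.val h8.symm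
    obtain ⟨y, h5, e⟩ := ker c h3
    have h6 := H.memS side1 d1.2.2 (fun i => g1 ▸ r1 d1 i) h5 (e ▸ h4 d1 m1)
    have h7 := H.memS side2 d4.2.1 (fun i => g4 ▸ r2 d4 i) h5 (e ▸ h4 d4 m4)
    rw [fp1 y (memW y h7 h6) (e ▸ h4 d1 m1), map_one] at e
    exact Subtype.ext e.symm
  have inj : ∀ {c c'}, c ∈ 𝐍(D) → c' ∈ 𝐍(D) → Ψ c = Ψ c' → (c : G) = c' := fun {c c'} h3 h4 h5 =>
    congrArg Subtype.val (inv_mul_eq_one.1 (in1 _ (mul_mem (inv_mem h3) h4) (by simp [h5])))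
  have n1 := le_normalizer m1
  have n4 := le_normalizer m4
  obtain ⟨a, ha1, ha2, ha3, ha4⟩ := H.fixed side1 d4.2 (inj (mul_mem (mul_mem n4 n4) n4) (one_mem _)
    (by simp only [map_mul, b4, map_one]; decide)) (fun i => (h1 _ _ _).1 (by rw [g3]; rfl)) fp4
  obtain ⟨b, hb1, hb2, hb3, hb4⟩ := H.fixed side2 d1.2 (inj (mul_mem (mul_mem n1 n1) n1) (one_mem _)
    (by simp only [map_mul, b1, map_one]; decide)) (fun i => (h2 _ _ _).1 (by rw [g2]; rfl)) fp1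
  have ca : ∀ p ∈ 𝐍(D), ∀ i, (p : G) * ι (a i) * (p : G)⁻¹ = ι (a (ψ1 p i)) := fun p hp i =>
    ha4 p p.2 ((f3.2.1 (ψ2 p)).imp
      (fun e => inj (mul_mem hp n4) (mul_mem n4 hp) (by simp only [map_mul, b4]; simp [Ψ, e]))
      (fun e => inj (mul_mem hp (inv_mem n4)) (mul_mem n4 hp)
        (by simp only [map_mul, map_inv, b4]; simp [Ψ, e]))) i _ (r1 p i)
  have cb : ∀ p ∈ 𝐍(D), ∀ i, (p : G) * ι (b i) * (p : G)⁻¹ = ι (b (ψ2 p i)) := fun p hp i =>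
    hb4 p p.2 ((f3.2.1 (ψ1 p)).imp
      (fun e => inj (mul_mem hp n1) (mul_mem n1 hp) (by simp only [map_mul, b1]; simp [Ψ, e]))
      (fun e => inj (mul_mem hp (inv_mem n1)) (mul_mem n1 hp)
        (by simp only [map_mul, map_inv, b1]; simp [Ψ, e]))) i _ (r2 p i)
  obtain ⟨k1, i1, j1⟩ := exC u1
  obtain ⟨k4, i4, j4⟩ := exC u4
  obtain ⟨s1, i2, j2⟩ := exC (u1 * p1)
  obtain ⟨s4, i3, j3⟩ := exC (u4 * p4)
  rw [e1] at j1
  rw [e4] at j4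
  rw [map_mul, e1, a1, show (swap 1 2, 1) * (ρ, 1) = ((swap 0 2, 1) : Perm (Fin 3) × Perm (Fin 3))
    by decide] at j2
  rw [map_mul, e4, a4, show (1, swap 1 2) * (1, ρ) = ((1, swap 0 2) : Perm (Fin 3) × Perm (Fin 3))
    by decide] at j3
  obtain ⟨y1, l1, o1⟩ := ker (k1 * u1) (by rw [map_mul, j1, e1]; decide)
  obtain ⟨y4, l4, o4⟩ := ker (k4 * u4) (by rw [map_mul, j4, e4]; decide)
  have t1 : ι (y1 * x12⁻¹) = k1 := by rw [map_mul, map_inv, o1]; simp [u1]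
  have t4 : ι (y4 * x45⁻¹) = k4 := by rw [map_mul, map_inv, o4]; simp [u4]
  have q1 : (k1 : G) * k1 = 1 := inj (mul_mem i1 i1) (one_mem _) (by simp only [map_mul, j1, map_one]; decide)
  have q4 : (k4 : G) * k4 = 1 := inj (mul_mem i4 i4) (one_mem _) (by simp only [map_mul, j4, map_one]; decide)
  have v1 := fun i => ca k1 i1 i
  have v2 := fun i => ca k4 i4 i
  have v3 := fun i => ca s1 i2 i
  have v4 := fun i => ca s4 i3 i
  have v5 := fun i => cb k1 i1 i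
  have v6 := fun i => cb k4 i4 i
  have v7 := fun i => cb s1 i2 i
  have v8 := fun i => cb s4 i3 i
  rw [show ψ1 k1 = _ from congrArg Prod.fst j1] at v1
  rw [show ψ1 k4 = _ from congrArg Prod.fst j4] at v2
  rw [show ψ1 s1 = _ from congrArg Prod.fst j2] at v3
  rw [show ψ1 s4 = _ from congrArg Prod.fst j3] at v4
  rw [show ψ2 k1 = _ from congrArg Prod.snd j1] at v5
  rw [show ψ2 k4 = _ from congrArg Prod.snd j4] at v6
  rw [show ψ2 s1 = _ from congrArg Prod.snd j2] at v7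
  rw [show ψ2 s4 = _ from congrArg Prod.snd j3] at v8
  have w1 : (k1 : G) * ι (a 1) * k1 = ι (a 2) := by
    have := v1 1
    rwa [inv_eq_of_mul_eq_one_right q1] at this
  have w4 : (k4 : G) * ι (b 1) * k4 = ι (b 2) := by
    have := v6 1
    rwa [inv_eq_of_mul_eq_one_right q4] at this
  refine ⟨y1 * x12⁻¹, a 1, b 1, y4 * x45⁻¹, ⟨by simpa using l1, by simpa using l4, (ha1 1).1, (hb1 1).1,
    H.inj (by rw [map_mul, t1, q1, map_one]), H.inj (by rw [map_mul, t4, q4, map_one]),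
    H.comm ?_, H.comm ?_, H.comm ?_⟩, s1, s4, ?_⟩
  · rw [t1, t4]; exact inj (mul_mem i1 i4) (mul_mem i4 i1) (by simp only [map_mul, j1, j4]; decide)
  · rw [t1]; exact mul_inv_eq_iff_eq_mul.1 (v5 1)
  · rw [t4]; exact mul_inv_eq_iff_eq_mul.1 (v2 1)
  rw [t1, t4]
  refine ⟨inj (mul_mem i2 i2) (one_mem _) (by simp only [map_mul, j2, map_one]; decide),
    inj (mul_mem i3 i3) (one_mem _) (by simp only [map_mul, j3, map_one]; decide),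
    inj (mul_mem (mul_mem (mul_mem i1 i2) (mul_mem i1 i2)) (mul_mem i1 i2)) (one_mem _)
      (by simp only [map_mul, j1, j2, map_one]; decide),
    inj (mul_mem (mul_mem (mul_mem i4 i3) (mul_mem i4 i3)) (mul_mem i4 i3)) (one_mem _)
      (by simp only [map_mul, j4, j3, map_one]; decide),
    inj (mul_mem i2 i3) (mul_mem i3 i2) (by simp only [map_mul, j2, j3]; decide),
    inj (mul_mem i2 i4) (mul_mem i4 i2) (by simp only [map_mul, j2, j4]; decide),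
    inj (mul_mem i3 i1) (mul_mem i1 i3) (by simp only [map_mul, j1, j3]; decide),
    mul_inv_eq_iff_eq_mul.1 (v3 1), mul_inv_eq_iff_eq_mul.1 (v7 1), mul_inv_eq_iff_eq_mul.1 (v4 1),
    mul_inv_eq_iff_eq_mul.1 (v8 1), mul_inv_eq_iff_eq_mul.1 ?_, mul_inv_eq_iff_eq_mul.1 ?_⟩
  · rw [mul_assoc (ι (a 1)), mul_assoc (ι (a 1)), w1, ← map_mul, ha2,
      (ha3 0).2 1, ← mul_assoc (a 1), (ha3 1).1, one_mul, v3 0, ← (ha3 0).2 1, ← ha2]; rfl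
  · rw [mul_assoc (ι (b 1)), mul_assoc (ι (b 1)), w4, ← map_mul, hb2,
      (hb3 0).2 1, ← mul_assoc (b 1), (hb3 1).1, one_mul, v8 0, ← (hb3 0).2 1, ← hb2]; rfl

theorem Hs.cfg [Finite G] [IsSimpleGroup G] (H : Hs ι) : ∃ f ∈ fin16, ∃ s1 s4,
    Cfg (ι (u f.1)) (ι (u f.2.1)) (ι (u f.2.2.1)) (ι (u f.2.2.2)) s1 s4 := by
  obtain ⟨k1, a, b, k4, h1, s1, s4, h2⟩ := H.cfg0
  obtain ⟨j, f, hf, e1, e2, e3, e4⟩ := h1.norm
  have := h2.cj (ι j)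
  simp only [← map_inv, ← map_mul, e1, e2, e3, e4] at this
  exact ⟨f, hf, _, _, this⟩

end Cfsg.Agent.H1.He
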