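import Cfsg.Agent.H1.He5
import Cfsg.Agent.H6.TT

/-! Held's theorem: checking words in the three groups of the amalgam. -/

set_option autoImplicit false

namespace Cfsg.Agent.H1.He

open Subgroup Cfsg.Agent.FT Cfsg.Agent.H4 Cfsg.Agent.H8.TC

/-- all letters of the word lie in the mask -/
noncomputable def okw (M : ℕ) (k : ℕ) : ℕ → Bool :=
  Nat.rec (motive := fun _ => ℕ → Bool) (fun W => Nat.beq W (nat_lit 0))
    (fun _ ih W => ite' (Nat.beq W (nat_lit 0)) true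
      (band (tb M (Nat.mod W (nat_lit 16))) (ih (Nat.div W (nat_lit 16))))) k

noncomputable def fold {β : Type} (f : ℕ → β → β) (n : β) (k : ℕ) : ℕ → β :=
  Nat.rec (motive := fun _ => ℕ → β) (fun _ => n)
    (fun _ ih W => ite' (Nat.beq W (nat_lit 0)) n
      (f (Nat.mod W (nat_lit 16)) (ih (Nat.div W (nat_lit 16))))) k

theorem fold_ind {G : Type*} [Group G] {lt : ℕ → G} (h0 : lt 0 = 1) {β : Type} {f : ℕ → β → β} {n : β}
    {M : ℕ} {P : G → β → Prop} (h1 : P 1 n)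
    (h2 : ∀ c g m, tb M c = true → P g m → P (lt c * g) (f c m)) (k : ℕ) :
    ∀ W, okw M k W = true → P (val lt W) (fold f n k W) := by
  induction k with
  | zero => intro W h; rw [Nat.eq_of_beq_eq_true h, val_zero]; exact h1
  | succ k ih =>
    intro W h
    change ite' (Nat.beq W 0) true (band (tb M (W % 16)) (okw M k (W / 16))) = true at h
    change P _ (ite' (Nat.beq W 0) n (f (W % 16) (fold f n k (W / 16))))
    cases e : Nat.beq W 0
    · rw [e] at h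
      change band _ _ = true at h
      rw [band_eq, Bool.and_eq_true] at h
      rw [val_step h0]
      exact h2 _ _ _ h.1 (ih _ h.2)
    · rw [Nat.eq_of_beq_eq_true e, val_zero]; exact h1

theorem dig6 (N i : ℕ) : dig N (nat_lit 6) i < 64 := Nat.lt_succ_of_le Nat.and_le_right

/-- letters in the model -/
noncomputable def hlt (A B c : ℕ) : HC := w (dig A (nat_lit 5) c) * u (dig B (nat_lit 25) c)
def tab (T c n : ℕ) : ℕ := dig T (nat_lit 6) (Nat.add (Nat.mul (nat_lit 64) c) n)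
theorem tab_lt (T c n : ℕ) : tab T c n < 64 := dig6 _ _
noncomputable def vh (hl : ℕ → HC) (W : ℕ) : HC := fold (fun c y => hl c * y) 1 (nat_lit 16) W
noncomputable def run (f : ℕ → ℕ → ℕ) (W n : ℕ) : ℕ := fold f n (nat_lit 16) W

noncomputable def pG (L : List HC) : ℕ → HC :=
  List.rec (motive := fun _ => ℕ → HC) (fun _ => 1)
    (fun p _ ih m => ite' (tb m (nat_lit 0)) (p * ih (Nat.shiftRight m (nat_lit 1)))
      (ih (Nat.shiftRight m (nat_lit 1)))) L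

noncomputable def bas (a a' b b' : HC) : List HC :=
  [a, a', b, b', a * b * a * b, a' * b * a' * b, a * b' * a * b', a' * b' * a' * b']

def AcOK (hl : ℕ → HC) (l : List ℕ) (M T C : ℕ) : Prop := M < 512 ∧ hl 0 = 1 ∧ ∀ n < 64,
  (∀ c < 9, tb M c = true → c ≠ 2 → c ≠ 8 → hl c * e l n = e l (tab T c n) * hl c) ∧
  e l n = pG (bas (hl 3) (hl 3 * hl 1 * hl 3 * hl 1) (hl 5) (hl 5 * hl 7 * hl 5 * hl 7))
    (dig C (nat_lit 8) n) ∧
  e l (tab T 2 n) = pG (bas (hl 3) (hl 1 * hl 3 * hl 1) (hl 5) (hl 5 * hl 7 * hl 5 * hl 7))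
    (dig C (nat_lit 8) n) ∧
  e l (tab T 8 n) = pG (bas (hl 3) (hl 3 * hl 1 * hl 3 * hl 1) (hl 5) (hl 7 * hl 5 * hl 7))
    (dig C (nat_lit 8) n)

noncomputable instance (hl : ℕ → HC) (l : List ℕ) (M T C : ℕ) : Decidable (AcOK hl l M T C) := by
  unfold AcOK; infer_instance

variable {G : Type*} [Group G] {ι : HC →* G}

/-- the letters in `G` -/
noncomputable def ltr (ι : HC →* G) (hl : ℕ → HC) (s1 s4 : G) (c : ℕ) : G :=
  if c = 2 then s1 else if c = 8 then s4 else ι (hl c)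

theorem ltr_of {hl : ℕ → HC} {s1 s4 : G} {c : ℕ} (h2 : c ≠ 2) (h8 : c ≠ 8) :
    ltr ι hl s1 s4 c = ι (hl c) := by rw [ltr, if_neg h2, if_neg h8]

theorem cj_pG {g : G} {L L' : List HC} (h : List.Forall₂ (fun p q => g * ι p * g⁻¹ = ι q) L L') :
    ∀ m, g * ι (pG L m) * g⁻¹ = ι (pG L' m) := by
  induction h with
  | nil => intro m; change g * ι 1 * g⁻¹ = ι 1; simp
  | @cons p q L L' h _ ih =>
    intro m
    change g * ι (ite' (tb m 0) (p * pG L _) (pG L _)) * g⁻¹ = ι (ite' (tb m 0) (q * pG L' _) (pG L' _))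
    cases tb m 0
    · exact ih _
    · change g * ι (p * _) * g⁻¹ = ι (q * _)
      rw [map_mul, map_mul, ← conj_mul, h, ih]

theorem cj_bas {g : G} {a a' b b' c c' d d' : HC} (h1 : g * ι a * g⁻¹ = ι c) (h2 : g * ι a' * g⁻¹ = ι c')
    (h3 : g * ι b * g⁻¹ = ι d) (h4 : g * ι b' * g⁻¹ = ι d') (m : ℕ) :
    g * ι (pG (bas a a' b b') m) * g⁻¹ = ι (pG (bas c c' d d') m) := by
  refine cj_pG ?_ m
  simp only [bas, List.forall₂_cons, h1, h2, h3, h4, List.forall₂_nil_left_iff, map_mul, ← conj_mul,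
    and_self]

/-- the conjugation action on the elements supported on `l` -/
def Ac (ι : HC →* G) (l : List ℕ) (g : G) (f : ℕ → ℕ) : Prop :=
  ∀ n < 64, g * ι (e l n) * g⁻¹ = ι (e l (f n))

theorem lt9 {M c : ℕ} (hM : M < 512) (h : tb M c = true) : c < 9 := by
  by_contra h1
  rw [tb_eq, Nat.testBit_lt_two_pow (lt_of_lt_of_le hM
    (Nat.pow_le_pow_right two_pos (not_lt.1 h1) : 2 ^ 9 ≤ _))] at h
  exact Bool.false_ne_true h

variable {hl : ℕ → HC} {s1 s4 : G} {l : List ℕ} {M T C : ℕ}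

theorem AcOK.zero (h : AcOK hl l M T C) : ltr ι hl s1 s4 0 = 1 := by
  rw [ltr_of (by decide) (by decide), h.2.1, map_one]

theorem AcOK.ac (h : AcOK hl l M T C) (K : Cfg (ι (hl 1)) (ι (hl 3)) (ι (hl 5)) (ι (hl 7)) s1 s4)
    {c : ℕ} (hc : tb M c = true) : Ac ι l (ltr ι hl s1 s4 c) (tab T c) := fun n hn => by
  obtain ⟨h1, h2, h3, h4⟩ := h.2.2 n hn
  by_cases e2 : c = 2
  · subst e2
    rw [h3, h2]
    refine cj_bas (mul_inv_eq_iff_eq_mul.2 K.c1a) (mul_inv_eq_iff_eq_mul.2 ?_)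
      (mul_inv_eq_iff_eq_mul.2 K.c1b) (mul_inv_eq_iff_eq_mul.2 ?_) _
    · simp only [map_mul]; exact K.m1
    · simp only [map_mul]
      exact (((Commute.mul_right K.c1b K.c1k).mul_right K.c1b).mul_right K.c1k).eq
  by_cases e8 : c = 8
  · subst e8
    rw [h4, h2]
    refine cj_bas (mul_inv_eq_iff_eq_mul.2 K.c4a) (mul_inv_eq_iff_eq_mul.2 ?_)
      (mul_inv_eq_iff_eq_mul.2 K.c4b) (mul_inv_eq_iff_eq_mul.2 ?_) _
    · simp only [map_mul]
      exact (((Commute.mul_right K.c4a K.c4k).mul_right K.c4a).mul_right K.c4k).eq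
    · simp only [map_mul]; exact K.m4
  rw [ltr_of e2 e8, ← map_mul, h1 c (lt9 h.1 hc) hc e2 e8, map_mul, mul_inv_cancel_right]

theorem AcOK.word (h : AcOK hl l M T C) (K : Cfg (ι (hl 1)) (ι (hl 3)) (ι (hl 5)) (ι (hl 7)) s1 s4)
    {W n : ℕ} (hW : okw M 16 W = true) (hn : n < 64) : run (tab T) W n < 64 ∧
    val (ltr ι hl s1 s4) W * ι (e l n) * (val (ltr ι hl s1 s4) W)⁻¹ = ι (e l (run (tab T) W n)) :=
  fold_ind h.zero (f := tab T) (P := fun g m => m < 64 ∧ g * ι (e l n) * g⁻¹ = ι (e l m)) ⟨hn, by simp⟩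
    (fun c g m hc h1 => ⟨tab_lt _ _ _, by rw [← h.ac K hc m h1.1, ← h1.2]; group⟩) 16 W hW

theorem val_vh (h0 : hl 0 = 1) {W : ℕ} (hW : okw 251 16 W = true) :
    val (ltr ι hl s1 s4) W = ι (vh hl W) :=
  fold_ind (by rw [ltr_of (by decide) (by decide), h0, map_one]) (P := fun g m => g = ι m) (by simp)
    (fun c g m hc h1 => by
      rw [map_mul, h1, ltr_of (by rintro rfl; revert hc; decide) (by rintro rfl; revert hc; decide)])
    16 W hW

theorem val_mem {lt : ℕ → G} (h0 : lt 0 = 1) {K : Subgroup G} {W : ℕ} (hW : okw M 16 W = true)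
    (h : ∀ c, tb M c = true → lt c ∈ K) : val lt W ∈ K :=
  fold_ind h0 (f := fun _ _ => ()) (n := ()) (P := fun g _ => g ∈ K) (one_mem K)
    (fun c _ _ hc h1 => mul_mem (h c hc) h1) 16 W hW

theorem vh_mem {K : Subgroup G} {W : ℕ} (hW : okw M 16 W = true)
    (h : ∀ c, tb M c = true → ι (hl c) ∈ K) : ι (vh hl W) ∈ K :=
  fold_ind (lt := fun _ => (1 : G)) rfl (P := fun _ m => ι m ∈ K) (by simp)
    (fun c _ _ hc h1 => by rw [map_mul]; exact mul_mem (h c hc) h1) 16 W hW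

theorem val_gen {lt : ℕ → G} (h0 : lt 0 = 1) (hM : M < 512) {W : ℕ} (hW : okw M 16 W = true) :
    val lt W ∈ H6.TT.gen lt 8 := val_mem h0 hW fun c hc => by
  rcases Nat.eq_zero_or_pos c with rfl | h
  · rw [h0]; exact one_mem _
  · exact H6.TT.lt_mem_gen h (Nat.le_of_lt_succ (lt9 hM hc))

/-- the extended centralizer -/
def ec (d : G) : Subgroup G where
  carrier := {g | g * d * g⁻¹ = d ∨ g * d * g⁻¹ = d⁻¹}
  one_mem' := Or.inl (by simp)
  mul_mem' := by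
    intro a b ha hb
    change _ ∨ _
    rw [show a * b * d * (a * b)⁻¹ = a * (b * d * b⁻¹) * a⁻¹ by group]
    rcases hb with hb | hb <;> rw [hb]
    · exact ha
    · rw [← conj_inv]
      rcases ha with ha | ha <;> rw [ha]
      exacts [Or.inr rfl, Or.inl (inv_inv d)]
  inv_mem' := by
    rintro a (ha | ha)
    · left; nth_rw 1 [← ha]; group
    · right
      calc _ = (a⁻¹ * d⁻¹ * a)⁻¹ := by group
        _ = _ := by nth_rw 1 [← ha]; group

theorem mem_ec_comm {d g : G} (h : g * d = d * g) : g ∈ ec d := Or.inl (mul_inv_eq_iff_eq_mul.2 h)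

theorem mem_ec_inv {k s : G} (hk : k * k = 1) (hs : s * s = 1) : k ∈ ec (k * s) ∧ s ∈ ec (k * s) :=
  ⟨Or.inr (H3.left_inverts hk hs), Or.inr (H3.right_inverts hk hs)⟩

def pts : List ℕ := [nat_lit 0, nat_lit 1, nat_lit 2, nat_lit 4, nat_lit 8, nat_lit 16, nat_lit 32]

/-- the coset action -/
def ctab (T TA tr c n : ℕ) : ℕ := ite' (Nat.beq c tr) (dig TA (nat_lit 6) n) (tab T c n)

def upd (hl : ℕ → HC) (s : ℕ) (y : HC) (c : ℕ) : HC := ite' (Nat.beq c s) y (hl c)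

def SdOK (hl : ℕ → HC) (l : List ℕ) (M T C Mk TA tr s k σ MN : ℕ) (KW : List ℕ) : Prop :=
  AcOK hl l M T C ∧ (tb M k = true ∧ tb M σ = true ∧ tb M s = true ∧ s ≠ 2 ∧ s ≠ 8 ∧ tr ≠ 2 ∧ tr ≠ 8 ∧
    e l 0 = 1 ∧ e l 1 ≠ 1 ∧ hl s * hl s = 1 ∧ MN < 512 ∧ (∀ p ∈ l, ∃ n ∈ pts, x p = e l n) ∧
    (∀ c < 9, tb MN c = true → tb M c = true ∧ c ≠ tr ∧ c ≠ 2 ∧ c ≠ 8) ∧ ∀ W ∈ KW, okw MN 16 W = true) ∧
  ∀ n < 64, hl tr * e l n = e l (dig TA (nat_lit 6) n) ∧
    (e l n * e l (tab T k (tab T σ n)) = 1 → e l n = 1) ∧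
    tab T s (tab T k (tab T σ (tab T s n))) = tab T k (tab T σ n) ∧
    (∃ v < 64, e l v * e l n * e l (tab T k (tab T σ v)) = 1) ∧
    (n = 0 ∨ ∃ W ∈ KW, vh (upd hl s (e l n * hl s)) W ≠ 1 ∧
      Pm Mk (vh (upd hl s (e l n * hl s)) W))

noncomputable instance (hl : ℕ → HC) (l : List ℕ) (M T C Mk TA tr s k σ MN : ℕ) (KW : List ℕ) :
    Decidable (SdOK hl l M T C Mk TA tr s k σ MN KW) := by unfold SdOK; infer_instance

theorem Hs.side [Finite G] (H : Hs ι) {Mk TA tr s k σ MN : ℕ} {KW : List ℕ} {Hp : POK l Mk 64}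
    (hR : IsR (pat Hp)) (h : SdOK hl l M T C Mk TA tr s k σ MN KW)
    (K : Cfg (ι (hl 1)) (ι (hl 3)) (ι (hl 5)) (ι (hl 7)) s1 s4)
    (h3 : ltr ι hl s1 s4 k * ltr ι hl s1 s4 σ * (ltr ι hl s1 s4 k * ltr ι hl s1 s4 σ) *
      (ltr ι hl s1 s4 k * ltr ι hl s1 s4 σ) = 1)
    (hN : ∀ c, tb M c = true → c ≠ tr → c ≠ s →
      ltr ι hl s1 s4 c ∈ ec (ltr ι hl s1 s4 k * ltr ι hl s1 s4 σ))
    {W : ℕ} (hW : okw M 16 W = true) (hp : ∀ n ∈ pts, run (ctab T TA tr) W n = n) :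
    val (ltr ι hl s1 s4) W = 1 := by
  obtain ⟨hA, ⟨a1, a2, a3, a4, a5, a6, a7, a8, a9, a10, a11, a12, a13, a14⟩, hn⟩ := h
  have hd : Ac ι l (ltr ι hl s1 s4 k * ltr ι hl s1 s4 σ) fun n => tab T k (tab T σ n) := fun n h => by
    beta_reduce
    rw [← hA.ac K a1 _ (tab_lt _ _ _), ← hA.ac K a2 _ h]; group
  generalize ltr ι hl s1 s4 k * ltr ι hl s1 s4 σ = d at h3 hN hd
  have sq : ∀ n < 64, ι (e l n) * ι (e l n) = 1 := fun n h => by
    rw [← map_mul, (hR.ab _ (e_mem h)).1, map_one]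
  have iv : ∀ n < 64, (ι (e l n))⁻¹ = ι (e l n) := fun n h => inv_eq_of_mul_eq_one_right (sq n h)
  have triv : ∀ r ∈ (pat Hp).map ι, r ∈ ec d → r = 1 := by
    rintro _ ⟨y, hy, rfl⟩ hr
    obtain ⟨n, h1, rfl⟩ := Hp.enum hy
    have h2 : ι (e l n) * d * (ι (e l n))⁻¹ * d⁻¹ = ι (e l n * e l (tab T k (tab T σ n))) := by
      rw [map_mul, ← hd n h1, iv n h1]; group
    rcases hr with hr | hr
    · rw [hr, mul_inv_cancel, ← map_one ι] at h2
      rw [(hn n h1).2.1 (H.inj h2).symm, map_one]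
    · rw [hr, show d⁻¹ * d⁻¹ = d by rw [← mul_inv_rev, inv_eq_iff_mul_eq_one, h3]] at h2
      have h4 : d * d = 1 := by
        rw [h2, ← map_mul, (hR.ab _ (mul_mem (e_mem h1) (e_mem (tab_lt _ _ _)))).1, map_one]
      rw [h4, one_mul] at h3
      have h5 := hd 1 (by decide)
      rw [h3, one_mul, inv_one, mul_one] at h5
      exact absurd ((hn 1 (by decide)).2.1 (by rw [← H.inj h5]; exact (hR.ab _ (e_mem (by decide))).1)) a9
  have es : ltr ι hl s1 s4 s = ι (hl s) := ltr_of a4 a5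
  have s2 : (ι (hl s))⁻¹ = ι (hl s) := by rw [← map_inv, inv_eq_of_mul_eq_one_right a10]
  have hs : ι (hl s) ∈ ec d := by
    have b0 := hA.ac K a3
    rw [es] at b0
    obtain ⟨y, b1, b2⟩ := H.cent_R hR (g := d⁻¹ * (ι (hl s) * d * ι (hl s))) (forall_pat fun n h1 => by
      have c1 := hd _ (tab_lt T s n)
      have c2 := b0 _ (tab_lt T k (tab T σ (tab T s n)))
      rw [(hn n h1).2.2.1, ← c1, ← b0 n h1, ← hd n h1] at c2
      calc _ = d⁻¹ * (d * ι (e l n) * d⁻¹) * (ι (hl s) * d * ι (hl s)) := by group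
        _ = _ := by rw [← c2]; group)
    obtain ⟨m', b3, rfl⟩ := Hp.enum b1
    have b2 := (hd m' b3).symm.trans (show _ = ι (hl s) * d * (ι (hl s))⁻¹ * d⁻¹ by rw [b2, s2]; group)
    obtain ⟨m, b3, b2⟩ : ∃ m < 64, ι (e l m) = _ := ⟨_, tab_lt _ _ _, b2⟩
    obtain ⟨v, b4, b5⟩ := (hn m b3).2.2.2.1
    have b6 : ι (e l v * hl s) ∈ ec d := Or.inl (by
      have b7 := congrArg ι b5
      rw [map_mul, map_mul, ← hd v b4, b2, map_one] at b7
      rw [map_mul, mul_inv_rev, iv v b4]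
      calc _ = ι (e l v) * (ι (hl s) * d * (ι (hl s))⁻¹ * d⁻¹) * (d * ι (e l v) * d⁻¹) * d := by group
        _ = d := by rw [b7, one_mul])
    rcases (hn v b4).2.2.2.2 with rfl | ⟨V, b7, b8, b9⟩
    · rwa [a8, one_mul] at b6
    · refine absurd (H.inj ((triv _ (mem_map_of_mem ι b9) (vh_mem (a14 V b7)
        fun c hc => ?_)).trans (map_one ι).symm)) b8
      obtain ⟨c1, c2, c3, c4⟩ := a13 c (lt9 a11 hc) hc
      unfold upd
      cases e1 : Nat.beq c s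
      · exact ltr_of (ι := ι) (hl := hl) (s1 := s1) (s4 := s4) c3 c4 ▸
          hN c c1 c2 (Nat.ne_of_beq_eq_false e1)
      · exact b6
  have hN' : ∀ c, tb M c = true → c ≠ tr → ltr ι hl s1 s4 c ∈ ec d := fun c h1 h2 => by
    by_cases e1 : c = s
    · rw [e1, es]; exact hs
    · exact hN c h1 h2 e1
  have key : ∀ n ∈ pts, (ι (e l n))⁻¹ * val (ltr ι hl s1 s4) W * ι (e l n) ∈ ec d := fun n h1 => by
    rw [show (ι (e l n))⁻¹ = (ι (e l (run (ctab T TA tr) W n)))⁻¹ by rw [hp n h1]]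
    refine (fold_ind hA.zero (f := ctab T TA tr) (n := n)
      (P := fun g m => m < 64 ∧ (ι (e l m))⁻¹ * g * ι (e l n) ∈ ec d)
      ⟨(by decide : ∀ n ∈ pts, n < 64) n h1, by simp⟩ (fun c g m hc h => ?_) 16 W hW).2
    unfold ctab
    cases e1 : Nat.beq c tr
    · refine ⟨dig6 _ _, ?_⟩
      change (ι (e l (tab T c m)))⁻¹ * _ * _ ∈ _
      rw [← hA.ac K hc m h.1]
      convert mul_mem (hN' c hc (Nat.ne_of_beq_eq_false e1)) h.2 using 1; group
    · refine ⟨dig6 _ _, ?_⟩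
      change (ι (e l (dig TA 6 m)))⁻¹ * _ * _ ∈ _
      rw [Nat.eq_of_beq_eq_true e1, ltr_of a6 a7, ← (hn m h.1).1, map_mul]
      convert h.2 using 1; group
  have k0 := key 0 (by decide)
  rw [a8, map_one, inv_one, one_mul, mul_one] at k0
  refine triv _ (H.cent_R hR fun a ha => ?_) k0
  have h1 : pat Hp ≤ (𝐂[val (ltr ι hl s1 s4) W]).comap ι := pat_le fun p hp => by
    obtain ⟨n, h1, e1⟩ := a12 p hp
    have h2 := (by decide : ∀ n ∈ pts, n < 64) n h1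
    have h4 := triv _ (mul_mem (inv_mem (mem_map_of_mem ι (e_mem h2))) ((hA.word K hW h2).2 ▸
      mem_map_of_mem ι (e_mem (hA.word (ι := ι) K hW h2).1)))
      (by convert mul_mem (key n h1) (inv_mem k0) using 1; group)
    rw [mem_comap, mem_cent1_iff, e1]
    rw [inv_mul_eq_one, eq_mul_inv_iff_mul_eq] at h4
    exact h4
  exact mem_cent1_iff.1 (h1 ha)

end Cfsg.Agent.H1.He
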