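import Cfsg.Agent.H1.He6b

/-! Held's theorem: the embedding of the model. -/

set_option autoImplicit false

namespace Cfsg.Agent.H1.He

open Subgroup

theorem exists_hs {G : Type*} [Group G] {s : SL5} (hs : (s : M5) = Matrix.transvection 0 1 1) {j : G}
    (hj : orderOf j = 2) (e : centralizer ({j} : Set G) ≃* centralizer ({s} : Set SL5)) :
    ∃ ι : HC →* G, Hs ι := by
  let φ : HC ≃* centralizer ({j} : Set G) :=
    ((MonoidHom.ofInjective HC.toSL_inj).trans (MulEquiv.subgroupCongr (range_toSL hs).1)).trans e.symm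
  let ι : HC →* G := (centralizer ({j} : Set G)).subtype.comp φ.toMonoidHom
  have inj : Function.Injective ι := Subtype.val_injective.comp φ.injective
  have rng : ∀ g, g * j = j * g → ∃ h, ι h = g := fun g hg =>
    ⟨φ.symm ⟨g, mem_centralizer_singleton_iff.2 hg⟩, by simp [ι]⟩
  obtain ⟨y, hy⟩ := rng j rfl
  have h1 : ∀ a, y * a = a * y := fun a => inj (by
    rw [map_mul, map_mul, hy]; exact (mem_centralizer_singleton_iff.1 (φ a).2).symm)
  rcases ctrT y (cent_t (h1 t)) (h1 _) (h1 _) (h1 _) (h1 _) with rfl | rfl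
  · rw [map_one] at hy; exact absurd hy.symm (BS.ne1 hj)
  · exact ⟨ι, inj, fun g hg => rng g (hy ▸ hg)⟩

end Cfsg.Agent.H1.He
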