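import Cfsg.Agent.H1.He7
import Cfsg.Agent.H9.HeG
import Cfsg.Agent.H6.HeZ

/-! Held's theorem: assembly. -/

set_option autoImplicit false

namespace Cfsg.Agent.H1.He

open Subgroup

theorem held {G : Type*} [Group G] [Finite G] [IsSimpleGroup G] {s : SL5}
    (hs : (s : M5) = Matrix.transvection 0 1 1) {j : G}
    (hj : orderOf j = 2) (e : centralizer ({j} : Set G) ≃* centralizer ({s} : Set SL5)) :
    H6.He.Held G := by
  obtain ⟨ι, H⟩ := exists_hs hs hj e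
  have key : ∀ {RL : List ℕ} {lt : ℕ → G}, Am ι RL lt → H6.TT.gen lt 8 = ⊤ := fun A =>
    H9.HeG.top_of H _ A.mem H.nt A.hD A.h5 A.h67
  obtain ⟨lt, A | A | A | A⟩ := H.amalgam
  · exact ⟨lt, A.zero, key A, Or.inl A.rel⟩
  · exact ⟨lt, A.zero, key A, Or.inr (Or.inl A.rel)⟩
  · exact ⟨lt, A.zero, key A, Or.inr (Or.inr (Or.inl A.rel))⟩
  · exact ⟨lt, A.zero, key A, Or.inr (Or.inr (Or.inr A.rel))⟩

end Cfsg.Agent.H1.He
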