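/-
Tate's theorem (by a transfer argument in a pulled-back central extension) and Thompson's transfer
lemma.
-/
import Cfsg.Agent.H1.Transfer

set_option autoImplicit false
set_option linter.unusedSectionVars false

open scoped commutatorElement

namespace Cfsg.Agent.H1

variable {G : Type*} [Group G] [Finite G] {p : ℕ} [hp : Fact p.Prime]

/-- The pull-back group used in the proof of Tate's theorem. -/
def tatePullback {E : Type*} [Group E] (K H : Subgroup G) [hK : K.Normal] (ψ : H →* E) :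
    Subgroup (G × E) where
  carrier := {y | ∃ x : H, ψ x = y.2 ∧ (x : G)⁻¹ * y.1 ∈ K}
  one_mem' := ⟨1, by simp, by simp⟩
  mul_mem' := by
    rintro a b ⟨x, hx, hx'⟩ ⟨y, hy, hy'⟩
    refine ⟨x * y, by simp [hx, hy], ?_⟩
    have := K.mul_mem (hK.conj_mem _ hx' (y : G)⁻¹) hy'
    convert this using 1
    simp only [Subgroup.coe_mul, Prod.fst_mul]; group
  inv_mem' := by
    rintro a ⟨x, hx, hx'⟩
    refine ⟨x⁻¹, by simp [hx], ?_⟩
    have := hK.conj_mem _ (K.inv_mem hx') (x : G)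
    convert this using 1
    simp only [Subgroup.coe_inv, Prod.fst_inv]; group

theorem tate_core {E : Type*} [Group E] (H : Subgroup G) (hH : ¬ p ∣ H.index) (ψ : H →* E)
    (Z : Subgroup E) (hZc : Z ≤ Subgroup.center E) (hZp : IsPGroup p Z)
    (hZ : ∀ x : H, (x : G) ∈ pResidual p G → ψ x ∈ Z) :
    ∃ θ : H →* E, (∀ x, θ x ∈ Z) ∧ ∀ x : H, (x : G) ∈ pResidual p G → θ x = ψ x ^ H.index := by
  set K := pResidual p G with hK
  let T := tatePullback K H ψ
  let π : T →* G := (MonoidHom.fst G E).comp T.subtype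
  have hπ : Function.Surjective π := by
    intro g
    have hg : g ∈ H ⊔ K := by
      rw [sup_comm, pResidual_sup_of_not_dvd_index hH]; trivial
    obtain ⟨x, hx, k, hk, rfl⟩ := mem_sup_normal_iff.mp hg
    exact ⟨⟨(x * k, ψ ⟨x, hx⟩), ⟨x, hx⟩, rfl, by simpa using hk⟩, rfl⟩
  let S : Subgroup T := H.comap π
  have hS : S.index = H.index := Subgroup.index_comap_of_surjective H hπ
  have : S.FiniteIndex := ⟨by rw [hS]; exact Subgroup.FiniteIndex.index_ne_zero⟩
  have hmem : ∀ y : S, (ψ ⟨(y : T).1.1, y.2⟩)⁻¹ * (y : T).1.2 ∈ Z := by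
    rintro ⟨⟨⟨g, e⟩, x, hx, hx'⟩, hg⟩
    dsimp only at hx hx' ⊢
    subst hx
    rw [← map_inv, ← map_mul]
    refine hZ _ ?_
    simpa using K.inv_mem hx'
  have hcomm : IsMulCommutative Z :=
    ⟨⟨fun a b => Subtype.ext (Subgroup.mem_center_iff.mp (hZc b.2) a)⟩⟩
  let lam : S →* Z :=
    { toFun := fun y => ⟨_, hmem y⟩
      map_one' := Subtype.ext (by
        show (ψ ⟨1, _⟩)⁻¹ * 1 = 1
        rw [show (⟨1, _⟩ : H) = 1 from rfl]; simp)
      map_mul' := fun a b => Subtype.ext (by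
        have h1 := Subgroup.mem_center_iff.mp (hZc (hmem a)) (ψ ⟨(b : T).1.1, b.2⟩)⁻¹
        show (ψ (⟨(a : T).1.1, a.2⟩ * ⟨(b : T).1.1, b.2⟩))⁻¹ * ((a : T).1.2 * (b : T).1.2) =
          (ψ ⟨(a : T).1.1, a.2⟩)⁻¹ * (a : T).1.2 * ((ψ ⟨(b : T).1.1, b.2⟩)⁻¹ * (b : T).1.2)
        rw [map_mul, ← mul_assoc _ (ψ ⟨(b : T).1.1, b.2⟩)⁻¹, ← h1]
        group) }
  open scoped IsMulCommutative in
  let W : T →* Z := lam.transfer
  let ι : H →* T := (H.subtype.prod ψ).codRestrict T fun x => ⟨x, rfl, by simp⟩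
  let κ : K →* T := (K.subtype.prod (1 : K →* E)).codRestrict T fun x => ⟨1, by simp, by simp⟩
  have hκ : ∀ k : K, W (κ k) = 1 := by
    intro k
    have h1 := pResidual_le_ker hZp (W.comp κ)
    rw [pResidual_pResidual_eq_top] at h1
    exact h1 (Subgroup.mem_top k)
  refine ⟨Z.subtype.comp (W.comp ι), fun x => (W (ι x)).2, fun x hx => ?_⟩
  let z : T := ⟨(1, ψ x), x, rfl, by simpa using hx⟩
  have h1 : ι x = κ ⟨x, hx⟩ * z := by
    apply Subtype.ext
    show ((x : G), ψ x) = ((x : G) * 1, 1 * ψ x)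
    simp
  have hz : z ∈ Subgroup.center T := by
    rw [Subgroup.mem_center_iff]
    intro y
    apply Subtype.ext
    refine Prod.ext (by show y.1.1 * 1 = 1 * y.1.1; simp) ?_
    exact Subgroup.mem_center_iff.mp (hZc (hZ x hx)) y.1.2
  open scoped IsMulCommutative in
  have h2 := MonoidHom.transfer_eq_pow lam z (fun k g₀ _ => by
    have := Subgroup.mem_center_iff.mp (Subgroup.pow_mem _ hz k) g₀
    rw [mul_assoc, ← this]; group)
  show ((W (ι x) : Z) : E) = _
  rw [h1, map_mul, hκ, one_mul]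
  show ((lam.transfer z : Z) : E) = _
  rw [h2]
  show (ψ ⟨(1 : G) ^ S.index, _⟩)⁻¹ * (ψ x) ^ S.index = _
  simp only [one_pow, hS]
  rw [show (⟨1, _⟩ : H) = 1 from rfl]; simp

/-- **Tate's theorem**: if `H` has index prime to `p` and `H ∩ O^p(G) ≤ H' H^p` then
`H ∩ O^p(G) = O^p(H)`. -/
theorem tate (H : Subgroup G) (hH : ¬ p ∣ H.index)
    (h : H ⊓ pResidual p G ≤ ⁅H, H⁆ ⊔ Subgroup.closure ((fun x => x ^ p) '' (H : Set G))) :
    H ⊓ pResidual p G ≤ pResidualOf p H := by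
  by_contra hcon
  let Q := H ⧸ pResidual p H
  have hQ : IsPGroup p Q := isPGroup_quotient_pResidual
  let U : Subgroup Q := ((pResidual p G).subgroupOf H).map (QuotientGroup.mk' (pResidual p H))
  have hUn : U.Normal := Subgroup.Normal.map inferInstance _ (QuotientGroup.mk'_surjective _)
  have hU : U ≠ ⊥ := by
    intro h0
    refine hcon fun x hx => ?_
    have : QuotientGroup.mk' (pResidual p H) ⟨x, hx.1⟩ ∈ U := ⟨⟨x, hx.1⟩, hx.2, rfl⟩
    rw [h0, Subgroup.mem_bot, QuotientGroup.mk'_apply, QuotientGroup.eq_one_iff] at this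
    exact mem_pResidual_subgroup_iff.mp this
  obtain ⟨k, hk, hkU⟩ := (hQ.to_subgroup U).nontrivial_iff_card.mp
    ((Subgroup.nontrivial_iff_ne_bot U).mpr hU)
  obtain ⟨R, hRn, hRU, hR⟩ := H2.exists_normal_le_card_eq_pow hQ U (k := k - 1)
    (by rw [hkU]; exact Nat.pow_le_pow_right hp.out.pos (by omega))
  have hcard : Nat.card U = Nat.card R * p := by
    rw [hkU, hR, ← pow_succ]; congr 1; omega
  have hc : ⁅U, ⊤⁆ ≤ R := H2.commutator_le_of_card_eq_mul_prime (hQ.of_equiv Subgroup.topEquiv.symm)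
    le_top (le_normalizer_of_normal _ _) (le_normalizer_of_normal _ _) hRU hcard
  have hidx : R.relIndex U = p :=
    Nat.eq_of_mul_eq_mul_left Nat.card_pos ((H2.card_mul_relIndex hRU).trans hcard)
  let Z : Subgroup (Q ⧸ R) := U.map (QuotientGroup.mk' R)
  have hZc : Z ≤ Subgroup.center (Q ⧸ R) := by
    rintro _ ⟨u, hu, rfl⟩
    rw [Subgroup.mem_center_iff]
    intro y
    obtain ⟨y, rfl⟩ := QuotientGroup.mk'_surjective R y
    rw [eq_comm, ← commutatorElement_eq_one_iff_mul_comm, ← map_commutatorElement,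
      QuotientGroup.mk'_apply, QuotientGroup.eq_one_iff]
    exact hc (Subgroup.commutator_mem_commutator hu (Subgroup.mem_top y))
  have hZp : ∀ z ∈ Z, z ^ p = 1 := by
    rintro _ ⟨u, hu, rfl⟩
    rw [← map_pow, QuotientGroup.mk'_apply, QuotientGroup.eq_one_iff]
    have := (R.subgroupOf U).pow_index_mem ⟨u, hu⟩
    rw [← Subgroup.relIndex, hidx] at this
    exact this
  obtain ⟨θ, hθ1, hθ2⟩ := tate_core H hH
    ((QuotientGroup.mk' R).comp (QuotientGroup.mk' (pResidual p H))) Z hZc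
    ((hQ.to_quotient R).to_subgroup Z) (fun x hx => ⟨_, ⟨x, hx, rfl⟩, rfl⟩)
  have hker : ⁅H, H⁆ ⊔ Subgroup.closure ((fun x => x ^ p) '' (H : Set G)) ≤
      θ.ker.map H.subtype := by
    refine sup_le ?_ ?_
    · rw [Subgroup.commutator_le]
      intro a ha b hb
      refine ⟨⁅(⟨a, ha⟩ : H), ⟨b, hb⟩⁆, ?_, rfl⟩
      rw [SetLike.mem_coe, MonoidHom.mem_ker, map_commutatorElement,
        commutatorElement_eq_one_iff_mul_comm]
      exact Subgroup.mem_center_iff.mp (hZc (hθ1 _)) _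
    · rw [Subgroup.closure_le]
      rintro _ ⟨a, ha, rfl⟩
      refine ⟨(⟨a, ha⟩ : H) ^ p, ?_, rfl⟩
      rw [SetLike.mem_coe, MonoidHom.mem_ker, map_pow]
      exact hZp _ (hθ1 _)
  have hUR : U ≤ R := by
    rintro _ ⟨x, hx, rfl⟩
    obtain ⟨y, hy, hyx⟩ := hker (h (Subgroup.mem_inf.mpr ⟨x.2, hx⟩))
    obtain rfl : y = x := Subtype.ext hyx
    have h1 := hθ2 y hx
    rw [MonoidHom.mem_ker.mp hy] at h1
    have h2 := ((hQ.to_quotient R).powEquiv' hH).injective (h1.symm.trans (one_pow H.index).symm)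
    exact (QuotientGroup.eq_one_iff _).mp h2
  rw [Subgroup.relIndex_eq_one.mpr hUR] at hidx
  exact hp.out.one_lt.ne hidx

/-- Tate's normal `p`-complement criterion. -/
theorem hasNormalPComplement_of_inf_pResidual_le_frattini (P : Sylow p G)
    (h : (P : Subgroup G) ⊓ pResidual p G ≤ (frattini P).map (P : Subgroup G).subtype) :
    HasNormalPComplement p G := by
  rw [hasNormalPComplement_iff_inf_eq_bot P, eq_bot_iff, ← pResidualOf_eq_bot_iff.mpr P.isPGroup']
  refine tate _ P.not_dvd_index (h.trans ((H2.map_frattini_le_iff P.isPGroup').mpr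
    ⟨le_sup_left, fun x hx => Subgroup.mem_sup_right (Subgroup.subset_closure ⟨x, hx, rfl⟩)⟩))

end Cfsg.Agent.H1
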